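import Cfsg.Agent.RuRank.Trans

/-!
The permutations of the 1755 points keeping the five suborbit relations come from `²F₄(2)`.
-/

set_option autoImplicit false
set_option maxRecDepth 100000
set_option maxHeartbeats 2000000

namespace CfsgLib.RuRank

/-- An element moving the first point to a point. -/
noncomputable def tr (p : Fin 1755) : H := wd (wordOfCode (get64 bWords p))

theorem tr_smul (p : Fin 1755) : tr p • (0 : Fin 1755) = p := exists_word_to p

/-- The relation between two points. -/
noncomputable def colour (p q : Fin 1755) : ℕ := col0 ((tr p)⁻¹ • q)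

theorem colour_smul (g : H) (p q : Fin 1755) : colour (g • p) (g • q) = colour p q := by
  have hfix : ((tr (g • p))⁻¹ * g * tr p) • (0 : Fin 1755) = 0 := by
    rw [mul_smul, mul_smul, tr_smul, inv_smul_eq_iff, tr_smul]
  have e := col0_smul hfix ((tr p)⁻¹ • q)
  rw [mul_smul, mul_smul, smul_inv_smul] at e
  exact e

theorem colour_zero (q : Fin 1755) : colour 0 q = col0 q := by
  have e := col0_smul (g := (tr 0)⁻¹) (by rw [inv_smul_eq_iff, tr_smul]) q
  exact e

/-- The stored relation with a fixed point. -/
def rowAt (k q : ℕ) : ℕ := (rows.getD k 0 >>> (4 * q)) &&& 15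

/-- A stored relation is right. -/
def rowChk (k q : ℕ) : Bool :=
  Nat.beq (rowAt k q) (get16 colours (run (winv (wordOfCode (get64 bWords (fixPt k)))) q))

theorem rowChk_a : ((List.range 5).all fun k => block (rowChk k) 0 1755) = true := by decide +kernel
theorem rowChk_b : ((List.range 4).all fun k => block (rowChk (k + 5)) 0 1755) = true := by decide +kernel
theorem rowChk_c : ((List.range 4).all fun k => block (rowChk (k + 9)) 0 1755) = true := by decide +kernel
theorem rowChk_d : ((List.range 4).all fun k => block (rowChk (k + 13)) 0 1755) = true := by decide +kernel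

theorem rowAt_eq (k : Fin 17) (q : Fin 1755) : rowAt k q = colour (fPt k) q := by
  have key : ∀ n o, ((List.range n).all fun k => block (rowChk (k + o)) 0 1755) = true →
      o ≤ k.val → k.val < o + n → rowAt k q = colour (fPt k) q := by
    intro n o h ho hn
    have h1 := List.all_eq_true.1 h (k.val - o) (List.mem_range.2 (by omega))
    rw [Nat.sub_add_cancel ho] at h1
    have h2 := List.all_eq_true.1 h1 q (List.mem_range.2 q.2)
    rw [Nat.zero_add] at h2
    rw [Nat.eq_of_beq_eq_true h2, colour, col0, tr, ← wd_winv, wd_smul]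
    rfl
  have hk := k.2
  by_cases h5 : k.val < 5
  · exact key 5 0 rowChk_a (by omega) (by omega)
  by_cases h9 : k.val < 9
  · exact key 4 5 rowChk_b (by omega) (by omega)
  by_cases h13 : k.val < 13
  · exact key 4 9 rowChk_c (by omega) (by omega)
  · exact key 4 13 rowChk_d (by omega) (by omega)

/-- The points looking like a fixed point from the earlier ones are known. -/
def cellChk (k : ℕ) : Bool :=
  force (fixPt k) fun f => (List.range 1755).all fun q =>
    !((List.range k).all fun j => Nat.beq (rowAt j q) (rowAt j f)) ||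
      (if Nat.ble k 5 then (lvlCell k).any (fun c => Nat.beq c q) else Nat.beq q f)

theorem cellChk_a : ∀ k < 6, 1 ≤ k → cellChk k = true := by decide +kernel
theorem cellChk_b : ∀ k < 12, 6 ≤ k → cellChk k = true := by decide +kernel
theorem cellChk_c : ∀ k < 17, 12 ≤ k → cellChk k = true := by decide +kernel

theorem cellChk_true {k : ℕ} (h1 : 1 ≤ k) (hk : k < 17) : cellChk k = true := by
  by_cases h6 : k < 6
  · exact cellChk_a k h6 h1
  by_cases h12 : k < 12
  · exact cellChk_b k h12 (by omega)
  · exact cellChk_c k hk (by omega)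

/-- All the relations with the fixed points in one number. -/
def rowKey (q : ℕ) : ℕ := (List.range 17).foldr (fun k a => 8 * a + rowAt k q) 0

theorem rowKey_ok : ((List.range 1754).all fun i =>
    Nat.blt (get16 colourOrder i) 1755 && Nat.blt (get16 colourOrder (i + 1)) 1755 &&
      Nat.blt (rowKey (get16 colourOrder i)) (rowKey (get16 colourOrder (i + 1)))) = true := by
  decide +kernel

section Key

attribute [local irreducible] rowKey get16 colourOrder

theorem rowKey_injective : Function.Injective fun q : Fin 1755 => rowKey q := by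
  have hd := rowKey_ok
  simp only [List.all_eq_true, List.mem_range, Bool.and_eq_true, Nat.blt, Nat.ble_eq] at hd
  have hlt : ∀ k < 1755, get16 colourOrder k < 1755 := fun k hk => by
    by_cases h' : k < 1754
    · exact (hd k h').1.1
    · have := (hd 1753 (by norm_num)).1.2
      rw [show k = 1753 + 1 by omega]
      exact this
  have hmono : StrictMono fun k : Fin 1755 => rowKey (get16 colourOrder k) := by
    rw [Fin.strictMono_iff_lt_succ]
    exact fun i => (hd i.val i.2).2
  have hinj : Function.Injective fun k : Fin 1755 => (⟨get16 colourOrder k, hlt k k.2⟩ : Fin 1755) :=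
    fun a b hab => hmono.injective (congrArg (fun x : Fin 1755 => rowKey x.val) hab)
  intro p q h
  obtain ⟨a, rfl⟩ := (Finite.injective_iff_surjective.1 hinj) p
  obtain ⟨b, rfl⟩ := (Finite.injective_iff_surjective.1 hinj) q
  have hab : a = b := hmono.injective h
  rw [hab]

end Key

/-- A map keeping the relations. -/
def Keeps (τ : Fin 1755 → Fin 1755) : Prop := ∀ p q, colour (τ p) (τ q) = colour p q

theorem cell_of_keeps {τ : Fin 1755 → Fin 1755} (hτ : Keeps τ) {k : Fin 17}
    (hfix : ∀ j : Fin 17, j.val < k.val → τ (fPt j) = fPt j) {h1 : 1 ≤ k.val} :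
    if k.val ≤ 5 then ∃ i < lvlSize k, (lvlCell k).getD i 0 = τ (fPt k) else τ (fPt k) = fPt k := by
  have h := cellChk_true h1 k.2
  simp only [cellChk, force_eq, List.all_eq_true, List.mem_range, Bool.or_eq_true,
    Bool.not_eq_true'] at h
  rcases h (τ (fPt k)).val (τ (fPt k)).2 with hbad | hgood
  · exfalso
    revert hbad
    rw [Bool.eq_false_iff]
    intro hne
    refine hne (List.all_eq_true.2 fun j hj => ?_)
    have hjk : j < k.val := List.mem_range.1 hj
    have hk := k.2
    let jj : Fin 17 := ⟨j, by omega⟩
    have e := hτ (fPt jj) (fPt k)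
    rw [hfix jj hjk, ← rowAt_eq, ← rowAt_eq] at e
    rw [show rowAt j (τ (fPt k)).val = rowAt j (fixPt k) from e]
    exact Nat.beq_refl _
  · by_cases h5 : k.val ≤ 5
    · rw [if_pos h5]
      rw [if_pos (show Nat.ble k.val 5 = true from Nat.ble_eq_true_of_le h5), List.any_eq_true] at hgood
      obtain ⟨c, hc, he⟩ := hgood
      obtain ⟨i, hi, rfl⟩ := List.getElem_of_mem hc
      refine ⟨i, ?_, ?_⟩
      · rwa [← (lens_ok k (by omega) h1).2.2.2.1]
      · rw [List.getD_eq_getElem _ _ hi]
        exact Nat.eq_of_beq_eq_true he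
    · rw [if_neg h5]
      rw [if_neg (show ¬ Nat.ble k.val 5 = true from fun h => h5 (Nat.le_of_ble_eq_true h))] at hgood
      exact Fin.ext (Nat.eq_of_beq_eq_true hgood)

theorem eq_id_of_keeps {τ : Fin 1755 → Fin 1755} (hτ : Keeps τ)
    (hfix : ∀ j : Fin 17, j.val < 6 → τ (fPt j) = fPt j) (p : Fin 1755) : τ p = p := by
  have hall : ∀ n ≤ 17, ∀ j : Fin 17, j.val < n → τ (fPt j) = fPt j := by
    intro n
    induction n with
    | zero => intro _ j hj; omega
    | succ n ih =>
      intro hn j hj
      rcases Nat.lt_or_ge j.val 6 with h6 | h6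
      · exact hfix j h6
      rcases Nat.lt_succ_iff_lt_or_eq.1 hj with hj | hj
      · exact ih (by omega) j hj
      · have h := cell_of_keeps hτ (k := j) (fun i hi => ih (by omega) i (by omega)) (h1 := by omega)
        rwa [if_neg (by omega)] at h
  refine rowKey_injective ?_
  show rowKey (τ p).val = rowKey p.val
  have key : ∀ k : Fin 17, rowAt k (τ p).val = rowAt k p.val := fun k => by
    rw [rowAt_eq, rowAt_eq]
    conv_lhs => rw [← hall 17 le_rfl k k.2]
    exact hτ _ _
  unfold rowKey
  have hl : ∀ l : List ℕ, (∀ k ∈ l, k < 17) →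
      l.foldr (fun k a => 8 * a + rowAt k (τ p).val) 0 = l.foldr (fun k a => 8 * a + rowAt k p.val) 0 := by
    intro l
    induction l with
    | nil => intro _; rfl
    | cons k l ih =>
      intro h
      rw [List.foldr_cons, List.foldr_cons, ih fun x hx => h x (List.mem_cons_of_mem _ hx)]
      exact congrArg _ (key ⟨k, h k List.mem_cons_self⟩)
  exact hl _ fun k hk => List.mem_range.1 hk

/-- A permutation keeping the relations and the first point is an element of the stabiliser. -/
theorem rigid {τ : Fin 1755 → Fin 1755} (hτ : Keeps τ) (h0 : τ 0 = 0) :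
    ∃ g : H, g • (0 : Fin 1755) = 0 ∧ ∀ p, τ p = g • p := by
  have step : ∀ n ≤ 6, 1 ≤ n → ∃ g : H, g • (0 : Fin 1755) = 0 ∧
      ∀ j : Fin 17, j.val < n → g • τ (fPt j) = fPt j := by
    intro n
    induction n with
    | zero => intro _ h; omega
    | succ n ih =>
      intro hn _
      rcases Nat.eq_zero_or_pos n with rfl | hn1
      · refine ⟨1, one_smul _ _, fun j hj => ?_⟩
        have : j = 0 := Fin.ext (by simpa using hj)
        rw [one_smul, this, fPt_zero, h0]
      obtain ⟨g, hg0, hg⟩ := ih (by omega) hn1
      let k : Fin 17 := ⟨n, by omega⟩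
      have hσ : Keeps fun p => g • τ p := fun p q => by rw [colour_smul]; exact hτ p q
      have h := cell_of_keeps hσ (k := k) (fun j hj => hg j hj) (h1 := hn1)
      rw [if_pos (show k.val ≤ 5 by show n ≤ 5; omega)] at h
      obtain ⟨i, hi, he⟩ := h
      have hm : repEl n i • fPt k = g • τ (fPt k) := by
        refine Fin.ext ?_
        rw [repEl_move (k := k) hn1 (by show n ≤ 5; omega) hi, he]
      have hfj : ∀ j : Fin 17, j.val < n → repEl n i • fPt j = fPt j := fun j hj =>
        repEl_fix hn1 (by omega) hi j hj
      refine ⟨(repEl n i)⁻¹ * g, ?_, fun j hj => ?_⟩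
      · rw [mul_smul, hg0, inv_smul_eq_iff, ← fPt_zero, hfj 0 (by simpa using hn1)]
      · rw [mul_smul, inv_smul_eq_iff]
        rcases Nat.lt_succ_iff_lt_or_eq.1 hj with hj | hj
        · rw [hg j hj, hfj j hj]
        · rw [show j = k from Fin.ext hj, hm]
  obtain ⟨g, hg0, hg⟩ := step 6 le_rfl (by norm_num)
  have hid := eq_id_of_keeps (τ := fun p => g • τ p) (fun p q => by rw [colour_smul]; exact hτ p q) hg
  exact ⟨g⁻¹, inv_smul_eq_iff.2 hg0.symm, fun p => eq_inv_smul_iff.2 (hid p)⟩

end CfsgLib.RuRank
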