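import Cfsg.Agent.RuRank.Basic
import Cfsg.Agent.RuRank.DataC
import Cfsg.Agent.RuRank.DataForest

/-!
`²F₄(2)` on the 2304 translates of a set of 780 points.
-/

set_option autoImplicit false
set_option maxRecDepth 100000
set_option maxHeartbeats 2000000

namespace CfsgLib.RuRank

/-! ### Orbit forests -/

/-- A forest for the orbits of some tables. -/
def forestOK (n : ℕ) (tabs : List ℕ) (par dep lab : ℕ) (roots : List ℕ) : Bool :=
  (List.range n).all fun i =>
    Nat.blt (get16 lab i) roots.length &&
      (if Nat.beq (get16 par i) 65535 then Nat.beq (roots.getD (get16 lab i) 0) i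
      else force (get16 par i / 4) fun p =>
        Nat.blt p n && Nat.blt (get16 par i % 4) tabs.length && Nat.blt (get16 dep p) (get16 dep i) &&
          Nat.beq (get16 lab p) (get16 lab i) && Nat.beq (get16 (tabs.getD (get16 par i % 4) 0) p) i)

theorem forest_spec {n : ℕ} {G : Type*} [Group G] [MulAction G (Fin n)] {tabs : List ℕ}
    {par dep lab : ℕ} {roots : List ℕ} (h : forestOK n tabs par dep lab roots = true)
    (g : ℕ → G) (hg : ∀ k < tabs.length, ∀ p : Fin n, ((g k • p : Fin n) : ℕ) = get16 (tabs.getD k 0) p)
    (S : Subgroup G) (hS : ∀ k < tabs.length, g k ∈ S) (i : Fin n) :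
    get16 lab i < roots.length ∧ ∃ r : Fin n, r.val = roots.getD (get16 lab i) 0 ∧
      ∃ s ∈ S, s • r = i := by
  simp only [forestOK, List.all_eq_true, List.mem_range, Bool.and_eq_true, force_eq, Nat.blt,
    Nat.ble_eq] at h
  suffices hs : ∀ d, ∀ i : Fin n, get16 dep i < d → ∃ r : Fin n, r.val = roots.getD (get16 lab i) 0 ∧
      ∃ s ∈ S, s • r = i from ⟨(h i i.2).1, hs _ i (Nat.lt_succ_self _)⟩
  intro d
  induction d with
  | zero => intro i hi; omega
  | succ d ih =>
    intro i hi
    obtain ⟨-, h2⟩ := h i i.2
    by_cases hp : Nat.beq (get16 par i) 65535 = true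
    · rw [if_pos hp] at h2
      exact ⟨i, (Nat.eq_of_beq_eq_true h2).symm, 1, one_mem _, one_smul _ _⟩
    · rw [if_neg hp] at h2
      simp only [Bool.and_eq_true, Nat.ble_eq, Nat.beq_eq] at h2
      obtain ⟨⟨⟨⟨h3, h4⟩, h5⟩, h6⟩, h7⟩ := h2
      obtain ⟨r, hr, s, hsS, hs⟩ := ih ⟨get16 par i / 4, h3⟩ (show get16 dep (get16 par i / 4) < d by omega)
      refine ⟨r, hr.trans (by rw [h6]), g (get16 par i % 4) * s, mul_mem (hS _ h4) hsS, ?_⟩
      rw [mul_smul, hs]
      exact Fin.ext ((hg _ h4 _).trans h7)

/-! ### The set and its stabiliser -/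

/-- Membership of the base set. -/
def inS (p : ℕ) : Bool := Nat.testBit setMask p

/-- The stabiliser of the base set. -/
def LS : Subgroup H where
  carrier := {g | ∀ p : Fin 1755, inS (g • p : Fin 1755) = inS p}
  one_mem' := fun p => by rw [one_smul]
  mul_mem' := fun {a b} ha hb p => by rw [mul_smul, ha, hb]
  inv_mem' := fun {a} ha p => by
    have := ha (a⁻¹ • p)
    rw [smul_inv_smul] at this
    exact this.symm

/-- The table of a generator of the stabiliser. -/
def lTab (k : ℕ) : ℕ := [lTab0, lTab1, lTab2].getD k 0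

/-- A generator of the stabiliser. -/
noncomputable def lGen (k : ℕ) : H := wd (lWords.getD k [])

theorem lTab_ok : ∀ k < 3, ((List.range 1755).all fun p =>
    Nat.beq (run (lWords.getD k []) p) (get16 (lTab k) p) && (inS (get16 (lTab k) p) == inS p)) = true := by
  decide +kernel

theorem lGen_smul {k : ℕ} (hk : k < 3) (p : Fin 1755) :
    ((lGen k • p : Fin 1755) : ℕ) = get16 (lTab k) p := by
  have h := List.all_eq_true.1 (lTab_ok k hk) p (List.mem_range.2 p.2)
  simp only [Bool.and_eq_true, Nat.beq_eq] at h
  rw [lGen, wd_smul, h.1]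

theorem lGen_mem {k : ℕ} (hk : k < 3) : lGen k ∈ LS := by
  intro p
  have h := List.all_eq_true.1 (lTab_ok k hk) p (List.mem_range.2 p.2)
  simp only [Bool.and_eq_true, beq_iff_eq] at h
  rw [lGen_smul hk]
  exact h.2

theorem lB_forest : forestOK 1755 [lTab0, lTab1, lTab2] lBPar lBDep lBLab lBRoots = true := by
  decide +kernel

theorem lB_root : lBRoots.getD 1 0 = basePoint ∧ basePoint < 1755 ∧ lBRoots.length = 2 ∧
    ((List.range 1755).filter fun p => Nat.beq (get16 lBLab p) 1).length = 780 := by
  decide +kernel

/-- Words of generators of the stabiliser run through their tables. -/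
def runL (w : List ℕ) (p : ℕ) : ℕ := runT lTab w p

/-- A product of generators of the stabiliser. -/
noncomputable def lProd : List ℕ → H
  | [] => 1
  | k :: w => lGen k * lProd w

theorem lProd_spec : ∀ w : List ℕ, (∀ k ∈ w, k < 3) →
    lProd w ∈ LS ∧ ∀ p : Fin 1755, ((lProd w • p : Fin 1755) : ℕ) = runL w p
  | [], _ => ⟨one_mem _, fun p => by rw [lProd, one_smul]; rfl⟩
  | k :: w, h => by
    obtain ⟨h1, h2⟩ := lProd_spec w fun x hx => h x (List.mem_cons_of_mem _ hx)
    have hk := h k List.mem_cons_self
    exact ⟨mul_mem (lGen_mem hk) h1, fun p => by rw [lProd, mul_smul, lGen_smul hk, h2, runL, runL, runT_cons]⟩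

/-- Iteration. -/
def iterN (f : ℕ → ℕ) : ℕ → ℕ → ℕ
  | 0, p => p
  | n + 1, p => force (iterN f n p) f

/-- A point moved by a proper power. -/
def movedWitness (i : ℕ) : ℕ :=
  ((List.range 1755).find? fun p =>
    !(Nat.beq (iterN (runL (fixWords.getD i [])) (if Nat.beq i 0 then 1 else 2) p) p)).getD 0

/-- A product fixes the point and its order is divisible by a number. -/
def fixOrderOK : Bool :=
  (List.range 2).all fun i => force (if Nat.beq i 0 then 5 else 4) fun o =>
    (fixWords.getD i []).all (fun k => Nat.blt k 3) &&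
      Nat.beq (runL (fixWords.getD i []) basePoint) basePoint &&
      (List.range 1755).all (fun p => Nat.beq (iterN (runL (fixWords.getD i [])) o p) p) &&
      !(Nat.beq (iterN (runL (fixWords.getD i [])) (if Nat.beq i 0 then 1 else 2) (movedWitness i)) (movedWitness i))

theorem fixOrderOK_true : fixOrderOK = true := by decide +kernel

theorem lProd_pow (w : List ℕ) (hw : ∀ k ∈ w, k < 3) : ∀ (n : ℕ) (p : Fin 1755),
    (((lProd w) ^ n • p : Fin 1755) : ℕ) = iterN (runL w) n p
  | 0, p => by rw [pow_zero, one_smul]; rfl
  | n + 1, p => by rw [pow_succ', mul_smul, (lProd_spec w hw).2, lProd_pow w hw n, iterN, force_eq]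

theorem twenty_dvd : 20 ∣ Nat.card (MulAction.stabilizer LS (⟨basePoint, lB_root.2.1⟩ : Fin 1755)) := by
  have key : ∀ i < 2, ∃ s : MulAction.stabilizer LS (⟨basePoint, lB_root.2.1⟩ : Fin 1755),
      orderOf s = if Nat.beq i 0 then 5 else 4 := by
    intro i hi
    have h := List.all_eq_true.1 fixOrderOK_true i (List.mem_range.2 hi)
    simp only [force_eq, Bool.and_eq_true, List.all_eq_true, List.mem_range, Nat.blt, Nat.ble_eq,
      Bool.not_eq_true'] at h
    obtain ⟨⟨⟨hw, hfix'⟩, hpow'⟩, hne⟩ := h
    have hfix := Nat.eq_of_beq_eq_true hfix'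
    have hpow := fun x hx => Nat.eq_of_beq_eq_true (hpow' x hx)
    have hw' : ∀ k ∈ fixWords.getD i [], k < 3 := fun k hk => by have := hw k hk; omega
    set g := lProd (fixWords.getD i []) with hg
    refine ⟨⟨⟨g, (lProd_spec _ hw').1⟩, Fin.ext (((lProd_spec _ hw').2 _).trans hfix)⟩, ?_⟩
    rw [← Subgroup.orderOf_coe, ← Subgroup.orderOf_coe]
    show orderOf g = _
    have hone : ∀ n, (∀ p < 1755, iterN (runL (fixWords.getD i [])) n p = p) → g ^ n = 1 := fun n hn =>
      eq_one_of_fixes _ fun p => Fin.ext ((lProd_pow _ hw' n p).trans (hn p p.2))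
    have hnot : g ^ (if Nat.beq i 0 then 1 else 2) ≠ 1 := by
      intro e
      set m := if Nat.beq i 0 then 1 else 2 with hm
      set q := ((List.range 1755).find? fun p =>
        !(Nat.beq (iterN (runL (fixWords.getD i [])) m p) p)).getD 0 with hq
      have hq' : q < 1755 := by
        rw [hq]
        cases hf : (List.range 1755).find? fun p =>
          !(Nat.beq (iterN (runL (fixWords.getD i [])) m p) p) with
        | none => simp
        | some a => simpa using List.mem_range.1 (List.mem_of_find?_eq_some hf)
      have := lProd_pow _ hw' m ⟨q, hq'⟩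
      rw [← hg, e, one_smul] at this
      rw [show movedWitness i = q from rfl] at hne
      have hb : Nat.beq (iterN (runL (fixWords.getD i [])) m q) q = true := by
        rw [← this]; exact Nat.beq_refl q
      rw [hb] at hne
      exact Bool.noConfusion hne
    interval_cases i
    · haveI : Fact (Nat.Prime 5) := ⟨by norm_num⟩
      exact (orderOf_eq_prime (p := 5) (hone 5 hpow) fun e => hnot (by rw [e]; exact one_pow _)).trans rfl
    · haveI : Fact (Nat.Prime 2) := ⟨Nat.prime_two⟩
      exact (orderOf_eq_prime_pow (p := 2) (n := 1) (by simpa using hnot) (hone 4 hpow)).trans rfl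
  obtain ⟨a, ha⟩ := key 0 (by norm_num)
  obtain ⟨b, hb⟩ := key 1 (by norm_num)
  have h5 : 5 ∣ Nat.card (MulAction.stabilizer LS (⟨basePoint, lB_root.2.1⟩ : Fin 1755)) := by
    have := orderOf_dvd_natCard a
    rw [ha] at this
    exact this
  have h4 : 4 ∣ Nat.card (MulAction.stabilizer LS (⟨basePoint, lB_root.2.1⟩ : Fin 1755)) := by
    have := orderOf_dvd_natCard b
    rw [hb] at this
    exact this
  exact Nat.Coprime.mul_dvd_of_dvd_of_dvd (by norm_num) h5 h4

theorem LS_card_ge : 15600 ≤ Nat.card LS := by
  set b : Fin 1755 := ⟨basePoint, lB_root.2.1⟩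
  have horb : 780 ≤ Nat.card (MulAction.orbit LS b) := by
    let T : Finset (Fin 1755) := (Finset.univ : Finset (Fin 1755)).filter fun p => Nat.beq (get16 lBLab p.val) 1 = true
    have hT : T.card = 780 := by
      have e : T.map Fin.valEmbedding =
          ((List.range 1755).filter fun p => Nat.beq (get16 lBLab p) 1).toFinset := by
        ext p
        simp only [T, Finset.mem_map, Finset.mem_filter, Finset.mem_univ, true_and, Fin.valEmbedding_apply,
          List.mem_toFinset, List.mem_filter, List.mem_range]
        exact ⟨fun ⟨a, ha, e⟩ => e ▸ ⟨a.2, ha⟩, fun ⟨h1, h2⟩ => ⟨⟨p, h1⟩, h2, rfl⟩⟩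
      rw [← lB_root.2.2.2, ← Finset.card_map Fin.valEmbedding, e,
        List.toFinset_card_of_nodup (List.Nodup.filter _ List.nodup_range)]
    rw [← hT, ← Nat.card_eq_finsetCard]
    refine Nat.card_le_card_of_injective (fun p : ↥T => (⟨(p : Fin 1755), ?_⟩ : MulAction.orbit LS b)) fun p q h => Subtype.ext (congrArg Subtype.val h :)
    obtain ⟨-, r, hr, s, hs, e⟩ := forest_spec lB_forest lGen
      (fun k hk q => by
        have hk' : k < 3 := hk
        rw [lGen_smul hk' q]
        rfl)
      LS (fun k hk => lGen_mem hk) p.1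
    have hl := Nat.eq_of_beq_eq_true (Finset.mem_filter.1 p.2).2
    rw [hl, lB_root.1] at hr
    refine ⟨⟨s, hs⟩, ?_⟩
    show s • b = p.1
    rw [show b = r from Fin.ext hr.symm, e]
  have h20 := twenty_dvd
  have hs : 20 ≤ Nat.card (MulAction.stabilizer LS b) := Nat.le_of_dvd Nat.card_pos h20
  have e := Nat.card_congr (MulAction.orbitProdStabilizerEquivGroup LS b)
  rw [Nat.card_prod] at e
  calc 15600 = 780 * 20 := rfl
    _ ≤ _ := Nat.mul_le_mul horb hs
    _ = _ := e

/-! ### The cosets -/

/-- The word of a coset representative. -/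
def cWord (i : ℕ) : List ℕ := wordOfCode (get64 cWords i)

/-- The code of a pattern on a list of points. -/
def patternOn (f : ℕ → Bool) : List ℕ → ℕ
  | [] => 0
  | p :: l => 2 * patternOn f l + if f p then 1 else 0

theorem patternOn_congr {f f' : ℕ → Bool} : ∀ {l : List ℕ}, (∀ p ∈ l, f p = f' p) →
    patternOn f l = patternOn f' l
  | [], _ => rfl
  | p :: l, h => by
    rw [patternOn, patternOn, patternOn_congr fun x hx => h x (List.mem_cons_of_mem _ hx),
      h p List.mem_cons_self]

/-- The pattern of a translate on the separating points. -/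
def patternW (w : List ℕ) : ℕ := patternOn (fun p => inS (run (winv w) p)) probes

theorem probes_lt : (probes.all fun p => Nat.blt p 1755) = true := by decide +kernel

/-- A natural number as a point. -/
def toPt (p : ℕ) : Fin 1755 := if h : p < 1755 then ⟨p, h⟩ else ⟨0, by norm_num⟩

/-- The pattern of a translate by an element. -/
noncomputable def patternG (g : H) : ℕ :=
  patternOn (fun p => inS ((g⁻¹ • toPt p : Fin 1755) : ℕ)) probes

theorem patternG_wd (w : List ℕ) : patternG (wd w) = patternW w := by
  unfold patternG patternW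
  refine patternOn_congr fun p hp => ?_
  have hlt : p < 1755 := by
    have h := List.all_eq_true.1 probes_lt p hp
    exact Nat.le_of_ble_eq_true h
  rw [toPt, dif_pos hlt, ← wd_winv, wd_smul]

theorem patternG_mul (g : H) {h : H} (hh : h ∈ LS) : patternG (g * h) = patternG g := by
  unfold patternG
  refine patternOn_congr fun p _ => ?_
  rw [mul_inv_rev, mul_smul]
  exact LS.inv_mem hh _

/-- The pattern of a coset. -/
noncomputable def pattern : H ⧸ LS → ℕ :=
  Quotient.lift patternG fun a b hab => by
    replace hab := QuotientGroup.leftRel_apply.1 hab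
    rw [← patternG_mul a hab, mul_inv_cancel_left]

theorem pattern_mk (g : H) : pattern (QuotientGroup.mk g) = patternG g := rfl

/-- The stored pattern is the pattern. -/
def codeChk (i : ℕ) : Bool :=
  Nat.beq (patternW (cWord i)) ((cCodes >>> (32 * i)) &&& 4294967295)

theorem cCodes_ok_0 : block codeChk 0 288 = true := by decide +kernel

theorem cCodes_ok_1 : block codeChk 288 288 = true := by decide +kernel

theorem cCodes_ok_2 : block codeChk 576 288 = true := by decide +kernel

theorem cCodes_ok_3 : block codeChk 864 288 = true := by decide +kernel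

theorem cCodes_ok_4 : block codeChk 1152 288 = true := by decide +kernel

theorem cCodes_ok_5 : block codeChk 1440 288 = true := by decide +kernel

theorem cCodes_ok_6 : block codeChk 1728 288 = true := by decide +kernel

theorem cCodes_ok_7 : block codeChk 2016 288 = true := by decide +kernel

theorem cCodes_ok {i : ℕ} (hi : i < 2304) : codeChk i = true := by
  refine of_blocks (len := 288) (count := 8) (fun k hk => ?_) hi
  interval_cases k
  · exact cCodes_ok_0
  · exact cCodes_ok_1
  · exact cCodes_ok_2
  · exact cCodes_ok_3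
  · exact cCodes_ok_4
  · exact cCodes_ok_5
  · exact cCodes_ok_6
  · exact cCodes_ok_7

/-- The stored pattern. -/
def cCode (i : ℕ) : ℕ := (cCodes >>> (32 * i)) &&& 4294967295

theorem cOrder_ok : ((List.range 2303).all fun k =>
    Nat.blt (get16 cOrder k) 2304 && Nat.blt (get16 cOrder (k + 1)) 2304 &&
      Nat.blt (cCode (get16 cOrder k)) (cCode (get16 cOrder (k + 1)))) = true := by
  decide +kernel

/-- A coset with given index. -/
noncomputable def coset (i : Fin 2304) : H ⧸ LS := QuotientGroup.mk (wd (cWord i))

theorem pattern_coset (i : Fin 2304) : pattern (coset i) = cCode i := by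
  rw [coset, pattern_mk, patternG_wd]
  exact Nat.eq_of_beq_eq_true (cCodes_ok i.2)

theorem cCode_injective : Function.Injective fun i : Fin 2304 => cCode i := by
  have hd := cOrder_ok
  simp only [List.all_eq_true, List.mem_range, Bool.and_eq_true, Nat.blt, Nat.ble_eq] at hd
  have hlt : ∀ k < 2304, get16 cOrder k < 2304 := fun k hk => by
    by_cases h' : k < 2303
    · exact (hd k h').1.1
    · have := (hd 2302 (by norm_num)).1.2
      rw [show k = 2302 + 1 by omega]
      exact this
  have hmono : StrictMono fun k : Fin 2304 => cCode (get16 cOrder k) := by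
    rw [Fin.strictMono_iff_lt_succ]
    exact fun i => (hd i.val i.2).2
  have hinj : Function.Injective fun k : Fin 2304 => (⟨get16 cOrder k, hlt k k.2⟩ : Fin 2304) :=
    fun a b hab => hmono.injective (congrArg (fun x : Fin 2304 => cCode x.val) hab)
  intro p q h
  obtain ⟨a, rfl⟩ := (Finite.injective_iff_surjective.1 hinj) p
  obtain ⟨b, rfl⟩ := (Finite.injective_iff_surjective.1 hinj) q
  have hab : a = b := hmono.injective h
  rw [hab]

theorem coset_injective : Function.Injective coset := fun i j h =>
  cCode_injective (show cCode i = cCode j by rw [← pattern_coset, ← pattern_coset, h])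

theorem index_LS : LS.index = 2304 ∧ Nat.card LS = 15600 := by
  have h := LS.card_mul_index
  rw [card_H] at h
  have h1 : 2304 ≤ LS.index := by
    rw [Subgroup.index_eq_card]
    simpa using Nat.card_le_card_of_injective coset coset_injective
  have h2 := LS_card_ge
  constructor <;> nlinarith

theorem coset_bijective : Function.Bijective coset :=
  coset_injective.bijective_of_nat_card_le (by
    rw [← Subgroup.index_eq_card, index_LS.1, Nat.card_fin])

/-- The indices of the cosets. -/
noncomputable def cosetEquiv : Fin 2304 ≃ H ⧸ LS := Equiv.ofBijective coset coset_bijective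

noncomputable instance : MulAction H (Fin 2304) where
  smul g i := cosetEquiv.symm (g • cosetEquiv i)
  one_smul i := by
    show cosetEquiv.symm _ = _
    rw [one_smul, Equiv.symm_apply_apply]
  mul_smul g h i := by
    show cosetEquiv.symm _ = cosetEquiv.symm (g • cosetEquiv (cosetEquiv.symm _))
    rw [mul_smul, Equiv.apply_symm_apply]

theorem smul_coset (g : H) (i : Fin 2304) : coset (g • i) = g • coset i :=
  cosetEquiv.apply_symm_apply _

/-- The table of a letter on the sets. -/
def cTab (j : ℕ) : ℕ :=
  match j % 4 with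
  | 0 => cTab0
  | 1 => cTab1
  | 2 => cTab2
  | _ => cTab3

/-- The check of a pair of letters on a set. -/
def pairChk (j i : ℕ) : Bool :=
  Nat.blt (get16 (cTab (2 * j)) i) 2304 && Nat.blt (get16 (cTab (2 * j + 1)) i) 2304 &&
    Nat.beq (get16 (cTab (2 * j + 1)) (get16 (cTab (2 * j)) i)) i &&
    Nat.beq (patternW ((2 * j) :: cWord i)) (cCode (get16 (cTab (2 * j)) i))

theorem pairChk_zero_0 : block (pairChk 0) 0 288 = true := by decide +kernel

theorem pairChk_zero_1 : block (pairChk 0) 288 288 = true := by decide +kernel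

theorem pairChk_zero_2 : block (pairChk 0) 576 288 = true := by decide +kernel

theorem pairChk_zero_3 : block (pairChk 0) 864 288 = true := by decide +kernel

theorem pairChk_zero_4 : block (pairChk 0) 1152 288 = true := by decide +kernel

theorem pairChk_zero_5 : block (pairChk 0) 1440 288 = true := by decide +kernel

theorem pairChk_zero_6 : block (pairChk 0) 1728 288 = true := by decide +kernel

theorem pairChk_zero_7 : block (pairChk 0) 2016 288 = true := by decide +kernel

theorem pairChk_zero {i : ℕ} (hi : i < 2304) : (pairChk 0) i = true := by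
  refine of_blocks (len := 288) (count := 8) (fun k hk => ?_) hi
  interval_cases k
  · exact pairChk_zero_0
  · exact pairChk_zero_1
  · exact pairChk_zero_2
  · exact pairChk_zero_3
  · exact pairChk_zero_4
  · exact pairChk_zero_5
  · exact pairChk_zero_6
  · exact pairChk_zero_7

theorem pairChk_one_0 : block (pairChk 1) 0 288 = true := by decide +kernel

theorem pairChk_one_1 : block (pairChk 1) 288 288 = true := by decide +kernel

theorem pairChk_one_2 : block (pairChk 1) 576 288 = true := by decide +kernel

theorem pairChk_one_3 : block (pairChk 1) 864 288 = true := by decide +kernel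

theorem pairChk_one_4 : block (pairChk 1) 1152 288 = true := by decide +kernel

theorem pairChk_one_5 : block (pairChk 1) 1440 288 = true := by decide +kernel

theorem pairChk_one_6 : block (pairChk 1) 1728 288 = true := by decide +kernel

theorem pairChk_one_7 : block (pairChk 1) 2016 288 = true := by decide +kernel

theorem pairChk_one {i : ℕ} (hi : i < 2304) : (pairChk 1) i = true := by
  refine of_blocks (len := 288) (count := 8) (fun k hk => ?_) hi
  interval_cases k
  · exact pairChk_one_0
  · exact pairChk_one_1
  · exact pairChk_one_2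
  · exact pairChk_one_3
  · exact pairChk_one_4
  · exact pairChk_one_5
  · exact pairChk_one_6
  · exact pairChk_one_7

theorem cTab_even {j : ℕ} (hj : j < 2) {i : ℕ} (hi : i < 2304) : pairChk j i = true := by
  interval_cases j
  · exact pairChk_zero hi
  · exact pairChk_one hi

theorem cTab_lt (j : ℕ) {i : ℕ} (hi : i < 2304) : get16 (cTab j) i < 2304 := by
  have h := cTab_even (j := j % 4 / 2) (by omega) hi
  simp only [pairChk, Bool.and_eq_true, Nat.blt, Nat.ble_eq] at h
  obtain ⟨⟨⟨h1, h2⟩, -⟩, -⟩ := h
  have e : cTab j = cTab (j % 4) := by simp [cTab]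
  rw [e]
  rcases (by omega : j % 4 = 2 * (j % 4 / 2) ∨ j % 4 = 2 * (j % 4 / 2) + 1) with e' | e' <;> rw [e']
  exacts [h1, h2]

theorem letter_smul_set (j : ℕ) (i : Fin 2304) :
    ((letter j • i : Fin 2304) : ℕ) = get16 (cTab j) i := by
  have key : ∀ j < 2, ∀ i : Fin 2304, (letter (2 * j) • i : Fin 2304) = ⟨get16 (cTab (2 * j)) i, cTab_lt _ i.2⟩ := by
    intro j hj i
    have h := cTab_even hj i.2
    simp only [pairChk, Bool.and_eq_true, Nat.beq_eq] at h
    refine cCode_injective ?_
    show cCode (letter (2 * j) • i : Fin 2304) = cCode (get16 (cTab (2 * j)) i)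
    rw [← pattern_coset, smul_coset, ← h.2, coset,
      show letter (2 * j) • (QuotientGroup.mk (wd (cWord i)) : H ⧸ LS) =
        QuotientGroup.mk (wd ((2 * j) :: cWord i)) from rfl, pattern_mk, patternG_wd]
  have e : cTab j = cTab (j % 4) := by simp [cTab]
  have el' : letter j = letter (j % 4) := Subtype.ext (by simp [letter, rootsOf])
  rw [e, el']
  rcases (by omega : j % 4 = 2 * (j % 4 / 2) ∨ j % 4 = 2 * (j % 4 / 2) + 1) with e' | e' <;> rw [e']
  · rw [key _ (by omega)]
  · set m := j % 4 / 2
    have hx : letter (2 * m + 1) = (letter (2 * m))⁻¹ := by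
      rw [← letter_xor]
      congr 1
      rcases (by omega : m = 0 ∨ m = 1) with h | h <;> rw [h] <;> rfl
    set t : Fin 2304 := ⟨get16 (cTab (2 * m + 1)) i, cTab_lt _ i.2⟩
    have hsurj : ∀ q : Fin 2304, ∃ p : Fin 2304, letter (2 * m) • p = q := fun q =>
      ⟨(letter (2 * m))⁻¹ • q, smul_inv_smul _ _⟩
    obtain ⟨p, rfl⟩ := hsurj i
    have h := cTab_even (j := m) (by omega) p.2
    simp only [pairChk, Bool.and_eq_true, Nat.beq_eq] at h
    rw [hx, inv_smul_smul, key m (by omega)]
    exact h.1.2.symm

/-- A word on the sets. -/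
def runC (w : List ℕ) (i : ℕ) : ℕ := runT cTab w i

theorem wd_smul_set : ∀ (w : List ℕ) (i : Fin 2304), ((wd w • i : Fin 2304) : ℕ) = runC w i
  | [], i => by rw [wd, one_smul]; rfl
  | j :: w, i => by rw [wd, mul_smul, letter_smul_set, wd_smul_set w i, runC, runC, runT_cons]

theorem coset_zero : cWord 0 = [] := by decide +kernel

theorem stab_zero : MulAction.stabilizer H (0 : Fin 2304) = LS := by
  ext g
  have e : coset 0 = QuotientGroup.mk (1 : H) := by
    rw [coset, show ((0 : Fin 2304) : ℕ) = 0 from rfl, coset_zero]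
    rfl
  rw [MulAction.mem_stabilizer_iff, ← coset_injective.eq_iff, smul_coset, e]
  show QuotientGroup.mk (g * 1) = (QuotientGroup.mk (1 : H) : H ⧸ LS) ↔ _
  rw [mul_one, QuotientGroup.eq, mul_one, LS.inv_mem_iff]

instance : MulAction.IsPretransitive H (Fin 2304) :=
  ⟨fun i k => by
    obtain ⟨g, hg⟩ := MulAction.exists_smul_eq H (coset i) (coset k)
    exact ⟨g, coset_injective ((smul_coset g i).trans hg)⟩⟩

theorem card_stab_set (i : Fin 2304) : Nat.card (MulAction.stabilizer H i) = 15600 := by
  have h := (MulAction.stabilizer H i).card_mul_index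
  rw [MulAction.index_stabilizer_of_transitive, Nat.card_fin, card_H] at h
  omega

theorem exists_word_to_set (i : Fin 2304) : wd (cWord i) • (0 : Fin 2304) = i := by
  refine coset_injective ?_
  rw [smul_coset, coset, coset, show ((0 : Fin 2304) : ℕ) = 0 from rfl, coset_zero]
  show QuotientGroup.mk (wd (cWord i) * 1) = _
  rw [mul_one]

end CfsgLib.RuRank
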