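import Cfsg.Agent.RuRank.Colour
import Cfsg.Agent.RuRank.Sets

/-!
A transitive group on `1 + 1755 + 2304` points with point stabiliser `²F₄(2)` is determined by it.
-/

set_option autoImplicit false
set_option maxRecDepth 100000
set_option maxHeartbeats 1000000

namespace CfsgLib.RuRank

/-! ### The points -/

/-- The 4060 points. -/
abbrev Pt : Type := Option (Fin 1755 ⊕ Fin 2304)

/-- The fixed point. -/
def base : Pt := none

/-- A point of the first orbit. -/
def pb (p : Fin 1755) : Pt := some (Sum.inl p)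

/-- A point of the second orbit. -/
def pc (c : Fin 2304) : Pt := some (Sum.inr c)

/-- The image of a point under an element of `²F₄(2)`. -/
noncomputable def mv (g : H) : Pt → Pt :=
  Option.map (Sum.map (fun p => g • p) (fun c => g • c))

theorem mv_base (g : H) : mv g base = base := rfl

theorem mv_pb (g : H) (p : Fin 1755) : mv g (pb p) = pb (g • p) := rfl

theorem mv_pc (g : H) (c : Fin 2304) : mv g (pc c) = pc (g • c) := rfl

theorem mv_one (x : Pt) : mv 1 x = x := by
  rcases x with _ | p | c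
  · exact mv_base 1
  · exact (mv_pb 1 p).trans (congrArg pb (one_smul H p))
  · exact (mv_pc 1 c).trans (congrArg pc (one_smul H c))

theorem mv_mul (g h : H) (x : Pt) : mv (g * h) x = mv g (mv h x) := by
  rcases x with _ | p | c
  · exact ((mv_base (g * h)).trans (mv_base g).symm).trans (congrArg (mv g) (mv_base h).symm)
  · exact ((mv_pb (g * h) p).trans (congrArg pb (mul_smul g h p))).trans
      ((mv_pb g (h • p)).symm.trans (congrArg (mv g) (mv_pb h p).symm))
  · exact ((mv_pc (g * h) c).trans (congrArg pc (mul_smul g h c))).trans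
      ((mv_pc g (h • c)).symm.trans (congrArg (mv g) (mv_pc h c).symm))

/-- The permutations of the 4060 points given by `²F₄(2)`. -/
noncomputable def rho : H →* Equiv.Perm Pt where
  toFun g :=
    { toFun := mv g
      invFun := mv g⁻¹
      left_inv := fun x => by rw [← mv_mul, inv_mul_cancel, mv_one]
      right_inv := fun x => by rw [← mv_mul, mul_inv_cancel, mv_one] }
  map_one' := Equiv.ext mv_one
  map_mul' g h := Equiv.ext (mv_mul g h)

theorem rho_base (g : H) : rho g base = base := rfl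

theorem rho_pb (g : H) (p : Fin 1755) : rho g (pb p) = pb (g • p) := rfl

theorem rho_pc (g : H) (c : Fin 2304) : rho g (pc c) = pc (g • c) := rfl

/-- A point lies in the first orbit. -/
def isB : Pt → Prop
  | some (Sum.inl _) => True
  | _ => False

theorem isB_pb (p : Fin 1755) : isB (pb p) := trivial

theorem not_isB_base : ¬ isB base := id

theorem not_isB_pc (c : Fin 2304) : ¬ isB (pc c) := id

theorem isB_rho (g : H) : ∀ x, isB (rho g x) ↔ isB x
  | none => Iff.rfl
  | some (Sum.inl _) => Iff.rfl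
  | some (Sum.inr _) => Iff.rfl

theorem pt_cases : ∀ x : Pt, x = base ∨ (∃ p, x = pb p) ∨ ∃ c, x = pc c
  | none => Or.inl rfl
  | some (Sum.inl p) => Or.inr (Or.inl ⟨p, rfl⟩)
  | some (Sum.inr c) => Or.inr (Or.inr ⟨c, rfl⟩)

theorem pb_ne_base (p : Fin 1755) : pb p ≠ base := by simp [pb, base]

theorem pc_ne_base (c : Fin 2304) : pc c ≠ base := by simp [pc, base]

theorem inv_apply_perm (k : Equiv.Perm Pt) (x : Pt) : k⁻¹ (k x) = x := k.symm_apply_apply x

theorem apply_inv_perm (k : Equiv.Perm Pt) (x : Pt) : k (k⁻¹ x) = x := k.apply_symm_apply x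

/-! ### Counting -/

/-- The number of elements with a property. -/
noncomputable def num {α : Type} (P : α → Prop) : ℕ := Nat.card {a // P a}

theorem num_congr {α : Type} {P Q : α → Prop} (h : ∀ a, P a ↔ Q a) : num P = num Q :=
  Nat.card_congr (Equiv.subtypeEquivRight h)

theorem num_comp {α : Type} (e : α ≃ α) {P Q : α → Prop} (h : ∀ a, P a ↔ Q (e a)) : num P = num Q :=
  Nat.card_congr (e.subtypeEquiv h)

theorem num_sum_comm {α β : Type} [Fintype α] [Fintype β] (R : α → β → Prop) :
    ∑ a, num (R a) = ∑ b, num fun a => R a b := by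
  classical
  simp only [num, Nat.card_eq_fintype_card, Fintype.card_subtype, Finset.card_filter]
  exact Finset.sum_comm

theorem num_split (P : Pt → Prop) [Decidable (P base)] :
    num P = (if P base then 1 else 0) + num (fun p => P (pb p)) + num (fun c => P (pc c)) := by
  classical
  simp only [num, Nat.card_eq_fintype_card, Fintype.card_subtype, Finset.card_filter, Fintype.sum_option,
    Fintype.sum_sum_type, base, pb, pc]
  rw [add_assoc]
  congr 1
  split_ifs <;> simp_all

theorem num_list {n : ℕ} (f : ℕ → Bool) :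
    num (fun p : Fin n => f p.val = true) = ((List.range n).filter f).length := by
  classical
  rw [num, Nat.card_eq_fintype_card, Fintype.card_subtype, ← Finset.card_map Fin.valEmbedding,
    ← List.toFinset_card_of_nodup (List.Nodup.filter _ List.nodup_range)]
  congr 1
  ext p
  simp only [Finset.mem_map, Finset.mem_filter, Finset.mem_univ, true_and, Fin.valEmbedding_apply,
    List.mem_toFinset, List.mem_filter, List.mem_range]
  exact ⟨fun ⟨a, ha, e⟩ => e ▸ ⟨a.2, ha⟩, fun ⟨h1, h2⟩ => ⟨⟨p, h1⟩, h2, rfl⟩⟩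

/-! ### Orbits of the two point stabilisers -/

/-- The number of points with labels in a set. -/
def labCount (n lab m : ℕ) : ℕ := ((List.range n).filter fun p => Nat.testBit m (get16 lab p)).length

theorem mask_spec {n : ℕ} {G : Type*} [Group G] [MulAction G (Fin n)] {tabs : List ℕ}
    {par dep lab : ℕ} {roots : List ℕ} (h : forestOK n tabs par dep lab roots = true)
    (g : ℕ → G) (hg : ∀ k < tabs.length, ∀ p : Fin n, ((g k • p : Fin n) : ℕ) = get16 (tabs.getD k 0) p)
    (f : Fin n → Prop) (hf : ∀ k < tabs.length, ∀ p, f (g k • p) ↔ f p) :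
    ∃ m < 2 ^ roots.length, (∀ p : Fin n, f p ↔ Nat.testBit m (get16 lab p) = true) ∧
      num f = labCount n lab m := by
  classical
  let S : Subgroup G :=
    { carrier := {s | ∀ p, f (s • p) ↔ f p}
      one_mem' := fun p => by rw [one_smul]
      mul_mem' := fun {a b} ha hb p => by rw [mul_smul]; exact (ha _).trans (hb p)
      inv_mem' := fun {a} ha p => by
        have := ha (a⁻¹ • p)
        rw [smul_inv_smul] at this
        exact this.symm }
  let v : Fin roots.length → Bool := fun i => decide (∃ r : Fin n, r.val = roots.getD i.1 0 ∧ f r)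
  have key : ∀ p : Fin n, f p ↔ Nat.testBit (Nat.ofBits v) (get16 lab p) = true := by
    intro p
    obtain ⟨hl, r, hr, s, hs, e⟩ := forest_spec h g hg S (fun k hk => hf k hk) p
    rw [Nat.testBit_ofBits_lt v _ hl, decide_eq_true_eq]
    have hsp : f p ↔ f r := by rw [← e]; exact hs r
    refine hsp.trans ⟨fun hfr => ⟨r, hr, hfr⟩, ?_⟩
    rintro ⟨r', hr', hfr'⟩
    rwa [show r = r' from Fin.ext (hr.trans hr'.symm)]
  exact ⟨Nat.ofBits v, Nat.ofBits_lt_two_pow v, key,
    (num_congr key).trans (num_list fun p => Nat.testBit (Nat.ofBits v) (get16 lab p))⟩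

/-- The table of a generator of the point stabiliser on the points. -/
def pTab (k : ℕ) : ℕ := [pTab0, pTab1].getD k 0

/-- The table of a generator of the point stabiliser on the sets. -/
def pcTab (k : ℕ) : ℕ := [pcTab0, pcTab1].getD k 0

/-- The table of a generator of the set stabiliser on the sets. -/
def lcTab (k : ℕ) : ℕ := [lcTab0, lcTab1, lcTab2].getD k 0

theorem pTab_ok : ∀ k < 2, block (fun p => Nat.beq (run (pWords.getD k []) p) (get16 (pTab k) p)) 0 1755 = true ∧
    Nat.beq (get16 (pTab k) 0) 0 = true := by decide +kernel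

theorem pcTab_ok0 : block (fun c => Nat.beq (runC (pWords.getD 0 []) c) (get16 (pcTab 0) c)) 0 2304 = true := by
  decide +kernel

theorem pcTab_ok1 : block (fun c => Nat.beq (runC (pWords.getD 1 []) c) (get16 (pcTab 1) c)) 0 2304 = true := by
  decide +kernel

theorem lcTab_ok0 : block (fun c => Nat.beq (runC (lWords.getD 0 []) c) (get16 (lcTab 0) c)) 0 2304 = true := by
  decide +kernel

theorem lcTab_ok1 : block (fun c => Nat.beq (runC (lWords.getD 1 []) c) (get16 (lcTab 1) c)) 0 2304 = true := by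
  decide +kernel

theorem lcTab_ok2 : block (fun c => Nat.beq (runC (lWords.getD 2 []) c) (get16 (lcTab 2) c)) 0 2304 = true := by
  decide +kernel

theorem pB_forest : forestOK 1755 [pTab0, pTab1] pBPar pBDep pBLab pBRoots = true := by decide +kernel

theorem pC_forest : forestOK 2304 [pcTab0, pcTab1] pCPar pCDep pCLab pCRoots = true := by decide +kernel

theorem lC_forest : forestOK 2304 [lcTab0, lcTab1, lcTab2] lCPar lCDep lCLab lCRoots = true := by
  decide +kernel

theorem pC_counts : ∀ m < 4, labCount 2304 pCLab m ∈ [0, 1024, 1280, 2304] ∧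
    (Nat.beq (labCount 2304 pCLab m) 1024 = true → m = 2) := by decide +kernel

theorem lB_counts : ∀ m < 4, labCount 1755 lBLab m ∈ [0, 780, 975, 1755] ∧
    (Nat.beq (labCount 1755 lBLab m) 780 = true → m = 2) := by decide +kernel

theorem pB_counts : ∀ m < 32, Nat.testBit m 0 = true ∨ ((Nat.beq (labCount 1755 pBLab m) 474 = false) ∧
    (Nat.beq (labCount 1755 pBLab m) 730 = true → m = 14)) := by decide +kernel

theorem lC_counts : ∀ m < 64, Nat.testBit m 0 = true ∨ ((Nat.beq (labCount 2304 lCLab m) 1755 = false) ∧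
    (Nat.beq (labCount 2304 lCLab m) 975 = true → m = 2)) := by decide +kernel

theorem roots_lengths : pBRoots.length = 5 ∧ pCRoots.length = 2 ∧ lBRoots.length = 2 ∧ lCRoots.length = 6 ∧
    get16 pBLab 0 = 0 ∧ get16 lCLab 0 = 0 := by decide +kernel

/-- A generator of the point stabiliser. -/
noncomputable def pGen (k : ℕ) : H := wd (pWords.getD k [])

theorem pGen_smul {k : ℕ} (hk : k < 2) (p : Fin 1755) : ((pGen k • p : Fin 1755) : ℕ) = get16 (pTab k) p := by
  have h := List.all_eq_true.1 (pTab_ok k hk).1 p (List.mem_range.2 p.2)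
  rw [Nat.zero_add] at h
  rw [pGen, wd_smul, Nat.eq_of_beq_eq_true h]

theorem pGen_smul_set {k : ℕ} (hk : k < 2) (c : Fin 2304) :
    ((pGen k • c : Fin 2304) : ℕ) = get16 (pcTab k) c := by
  have h : block (fun c => Nat.beq (runC (pWords.getD k []) c) (get16 (pcTab k) c)) 0 2304 = true := by
    rcases (by omega : k = 0 ∨ k = 1) with rfl | rfl
    exacts [pcTab_ok0, pcTab_ok1]
  have h := List.all_eq_true.1 h c (List.mem_range.2 c.2)
  rw [Nat.zero_add] at h
  rw [pGen, wd_smul_set, Nat.eq_of_beq_eq_true h]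

theorem pGen_fix {k : ℕ} (hk : k < 2) : pGen k • (0 : Fin 1755) = 0 :=
  Fin.ext ((pGen_smul hk 0).trans (Nat.eq_of_beq_eq_true (pTab_ok k hk).2))

theorem lGen_smul_set {k : ℕ} (hk : k < 3) (c : Fin 2304) :
    ((lGen k • c : Fin 2304) : ℕ) = get16 (lcTab k) c := by
  have h : block (fun c => Nat.beq (runC (lWords.getD k []) c) (get16 (lcTab k) c)) 0 2304 = true := by
    rcases (by omega : k = 0 ∨ k = 1 ∨ k = 2) with rfl | rfl | rfl
    exacts [lcTab_ok0, lcTab_ok1, lcTab_ok2]
  have h := List.all_eq_true.1 h c (List.mem_range.2 c.2)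
  rw [Nat.zero_add] at h
  rw [lGen, wd_smul_set, Nat.eq_of_beq_eq_true h]

theorem lGen_fix {k : ℕ} (hk : k < 3) : lGen k • (0 : Fin 2304) = 0 := by
  rw [← MulAction.mem_stabilizer_iff, stab_zero]
  exact lGen_mem hk

/-! ### The colours -/

/-- A point is a neighbour of the first one. -/
def nbBit (q : ℕ) : Bool := Nat.testBit nbMask q

theorem label_facts : ((List.range 1755).all fun q =>
    Nat.beq (get16 colours q) (get16 pBLab q) && (nbBit q == Nat.testBit 14 (get16 pBLab q)) &&
      (inS q == Nat.beq (get16 lBLab q) 1)) = true := by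
  decide +kernel

/-- The common neighbours of the first point and the root of a colour. -/
def valOf (i : ℕ) : ℕ :=
  force (pBRoots.getD i 0) fun r =>
    ((List.range 1755).filter fun z =>
      nbBit z && nbBit (run (winv (wordOfCode (get64 bWords r))) z)).length

theorem valOf_eq : (List.range 5).map valOf = [730, 217, 345, 281, 315] := by decide +kernel

theorem valOf_inj {i j : ℕ} (hi : i < 5) (hj : j < 5) (h : valOf i = valOf j) : i = j := by
  have key : ∀ k < 5, valOf k = [730, 217, 345, 281, 315].getD k 0 := fun k hk => by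
    rw [← valOf_eq, List.getD_eq_getElem _ _ (by simpa using hk)]
    simp
  rw [key i hi, key j hj] at h
  interval_cases i <;> interval_cases j <;> first | rfl | exact absurd h (by decide)

/-! ### The forced graph -/

/-- The hypotheses on a group. -/
structure Good (K : Subgroup (Equiv.Perm Pt)) : Prop where
  trans : ∀ x, ∃ k ∈ K, k base = x
  mem : ∀ g, rho g ∈ K
  stab : ∀ k ∈ K, k base = base → ∃ g, k = rho g

/-- The orbital graph of the orbit of length 1755. -/
def adj (K : Subgroup (Equiv.Perm Pt)) (x y : Pt) : Prop := ∃ k ∈ K, k base = x ∧ isB (k⁻¹ y)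

variable {K : Subgroup (Equiv.Perm Pt)}

theorem adj_of (hK : Good K) {k : Equiv.Perm Pt} (hk : k ∈ K) (y : Pt) : adj K (k base) y ↔ isB (k⁻¹ y) := by
  refine ⟨?_, fun h => ⟨k, hk, rfl, h⟩⟩
  rintro ⟨k', hk', he, h⟩
  obtain ⟨g, hg⟩ := hK.stab _ (mul_mem (inv_mem hk) hk') (by
    rw [Equiv.Perm.mul_apply, he, inv_apply_perm])
  have e : k⁻¹ y = rho g (k'⁻¹ y) := by
    rw [← hg, Equiv.Perm.mul_apply, apply_inv_perm]
  rw [e, isB_rho]
  exact h

theorem adj_base (hK : Good K) (y : Pt) : adj K base y ↔ isB y := by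
  have h := adj_of hK (one_mem K) y
  rwa [inv_one, Equiv.Perm.one_apply, Equiv.Perm.one_apply] at h

theorem adj_smul (hK : Good K) {k : Equiv.Perm Pt} (hk : k ∈ K) (x y : Pt) :
    adj K (k x) (k y) ↔ adj K x y := by
  obtain ⟨k₁, hk₁, rfl⟩ := hK.trans x
  rw [← Equiv.Perm.mul_apply, adj_of hK (mul_mem hk hk₁), adj_of hK hk₁, mul_inv_rev, Equiv.Perm.mul_apply,
    inv_apply_perm]

theorem adj_rho (hK : Good K) (g : H) (x y : Pt) : adj K (rho g x) (rho g y) ↔ adj K x y :=
  adj_smul hK (hK.mem g) x y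

theorem adj_irrefl (hK : Good K) (x : Pt) : ¬ adj K x x := by
  obtain ⟨k, hk, rfl⟩ := hK.trans x
  rw [adj_of hK hk, inv_apply_perm]
  exact not_isB_base

theorem num_isB : num isB = 1755 := by
  classical
  rw [num_split, if_neg not_isB_base]
  have h1 : num (fun p => isB (pb p)) = 1755 := by
    rw [num, Nat.card_congr (Equiv.subtypeUnivEquiv isB_pb), Nat.card_fin]
  have h2 : num (fun c => isB (pc c)) = 0 := by
    haveI : IsEmpty {c // isB (pc c)} := ⟨fun c => not_isB_pc c.1 c.2⟩
    exact Nat.card_of_isEmpty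
  rw [h1, h2]

theorem num_adj (hK : Good K) (x : Pt) : num (adj K x) = 1755 := by
  obtain ⟨k, hk, rfl⟩ := hK.trans x
  rw [← num_isB]
  exact num_comp k⁻¹ fun y => adj_of hK hk y

theorem adj_to_base (hK : Good K) (p : Fin 1755) : adj K (pb p) base := by
  obtain ⟨k, hk, hkp⟩ := hK.trans (pb p)
  by_contra hn
  rw [← hkp, adj_of hK hk] at hn
  rcases pt_cases (k⁻¹ base) with h | ⟨q, h⟩ | ⟨c₀, hc₀⟩
  · refine pb_ne_base p ?_
    rw [← hkp]
    conv_lhs => rw [← h, apply_inv_perm]
  · exact hn (h ▸ isB_pb q)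
  -- every point of the second orbit then points at the fixed one, and none of the first
  have hC : ∀ c, adj K (pc c) base := by
    intro c
    obtain ⟨g, hg⟩ := MulAction.exists_smul_eq H c₀ c
    have h1 : adj K (k⁻¹ base) (k⁻¹ (pb p)) := (adj_smul hK (inv_mem hk) base (pb p)).2 ((adj_base hK _).2 (isB_pb p))
    rw [hc₀, ← hkp, inv_apply_perm] at h1
    have h2 := (adj_rho hK g _ _).2 h1
    rwa [rho_pc, rho_base, hg] at h2
  have hB : ∀ q, ¬ adj K (pb q) base := by
    intro q hq
    obtain ⟨g, hg⟩ := MulAction.exists_smul_eq H q p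
    have h2 := (adj_rho hK g _ _).2 hq
    rw [rho_pb, rho_base, hg, ← hkp, adj_of hK hk] at h2
    exact hn h2
  have hin : num (fun x => adj K x base) = 2304 := by
    classical
    rw [num_split, if_neg (adj_irrefl hK base)]
    have h1 : num (fun q => adj K (pb q) base) = 0 := by
      haveI : IsEmpty {q // adj K (pb q) base} := ⟨fun q => hB q.1 q.2⟩
      exact Nat.card_of_isEmpty
    have h2 : num (fun c => adj K (pc c) base) = 2304 := by
      rw [num, Nat.card_congr (Equiv.subtypeUnivEquiv hC), Nat.card_fin]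
    rw [h1, h2]
  have hall : ∀ y, num (fun x => adj K x y) = 2304 := fun y => by
    obtain ⟨k', hk', rfl⟩ := hK.trans y
    rw [← hin]
    exact num_comp k'⁻¹ fun x => by
      rw [← adj_smul hK hk' (k'⁻¹ x) base, apply_inv_perm]
  have := num_sum_comm (adj K)
  rw [Finset.sum_congr rfl (fun x _ => num_adj hK x), Finset.sum_congr rfl (fun y _ => hall y),
    Finset.sum_const, Finset.sum_const, smul_eq_mul, smul_eq_mul] at this
  have hpos : 0 < (Finset.univ : Finset Pt).card := Finset.card_pos.2 ⟨base, Finset.mem_univ _⟩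
  exact absurd (Nat.eq_of_mul_eq_mul_left hpos this) (by norm_num)

theorem adj_symm (hK : Good K) {x y : Pt} (h : adj K x y) : adj K y x := by
  obtain ⟨k, hk, rfl⟩ := hK.trans x
  rw [adj_of hK hk] at h
  rcases pt_cases (k⁻¹ y) with e | ⟨p, e⟩ | ⟨c, e⟩ <;> rw [e] at h
  · exact absurd h not_isB_base
  · have h1 := (adj_smul hK hk _ _).2 (adj_to_base hK p)
    rwa [← e, apply_inv_perm] at h1
  · exact absurd h (not_isB_pc c)

theorem adj_pc_base (hK : Good K) (c : Fin 2304) : ¬ adj K (pc c) base := fun h =>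
  not_isB_pc c ((adj_base hK _).1 (adj_symm hK h))

/-- The forced neighbourhoods. -/
theorem forced (hK : Good K) :
    (∀ q, adj K (pb 0) (pb q) ↔ Nat.testBit 14 (get16 pBLab (q : Fin 1755).val) = true) ∧
    (∀ c, adj K (pb 0) (pc c) ↔ Nat.testBit 2 (get16 pCLab (c : Fin 2304).val) = true) ∧
    (∀ q, adj K (pc 0) (pb q) ↔ Nat.testBit 2 (get16 lBLab (q : Fin 1755).val) = true) ∧
    (∀ c, adj K (pc 0) (pc c) ↔ Nat.testBit 2 (get16 lCLab (c : Fin 2304).val) = true) := by
  classical
  obtain ⟨l1, l2, l3, l4, l5, l6⟩ := roots_lengths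
  obtain ⟨m1, h1m, h1, c1⟩ := mask_spec pB_forest pGen (fun k hk p => by
      rw [pGen_smul (show k < 2 from hk), pTab])
    (fun q => adj K (pb 0) (pb q)) (fun k hk q => by
      have := adj_rho hK (pGen k) (pb 0) (pb q)
      rwa [rho_pb, rho_pb, pGen_fix (show k < 2 from hk)] at this)
  obtain ⟨m2, h2m, h2, c2⟩ := mask_spec pC_forest pGen (fun k hk p => by
      rw [pGen_smul_set (show k < 2 from hk), pcTab])
    (fun c => adj K (pb 0) (pc c)) (fun k hk q => by
      have := adj_rho hK (pGen k) (pb 0) (pc q)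
      rwa [rho_pb, rho_pc, pGen_fix (show k < 2 from hk)] at this)
  obtain ⟨m3, h3m, h3, c3⟩ := mask_spec lB_forest lGen (fun k hk p => by
      rw [lGen_smul (show k < 3 from hk), lTab])
    (fun q => adj K (pc 0) (pb q)) (fun k hk q => by
      have := adj_rho hK (lGen k) (pc 0) (pb q)
      rwa [rho_pc, rho_pb, lGen_fix (show k < 3 from hk)] at this)
  obtain ⟨m4, h4m, h4, c4⟩ := mask_spec lC_forest lGen (fun k hk p => by
      rw [lGen_smul_set (show k < 3 from hk), lcTab])
    (fun c => adj K (pc 0) (pc c)) (fun k hk q => by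
      have := adj_rho hK (lGen k) (pc 0) (pc q)
      rwa [rho_pc, rho_pc, lGen_fix (show k < 3 from hk)] at this)
  rw [l1] at h1m
  rw [l2] at h2m
  rw [l3] at h3m
  rw [l4] at h4m
  -- degrees
  have hdB := num_adj hK (pb 0)
  rw [num_split, if_pos (adj_to_base hK 0), c1, c2] at hdB
  have hdC := num_adj hK (pc 0)
  rw [num_split, if_neg (adj_pc_base hK 0), c3, c4] at hdC
  -- edges between the two orbits
  have hedge : 1755 * labCount 2304 pCLab m2 = 2304 * labCount 1755 lBLab m3 := by
    have e1 : ∀ p : Fin 1755, num (fun c => adj K (pb p) (pc c)) = labCount 2304 pCLab m2 := fun p => by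
      obtain ⟨g, rfl⟩ := MulAction.exists_smul_eq H (0 : Fin 1755) p
      rw [← c2]
      exact (num_comp (MulAction.toPerm g) fun c => (adj_rho hK g (pb 0) (pc c)).symm).symm
    have e2 : ∀ c : Fin 2304, num (fun p => adj K (pb p) (pc c)) = labCount 1755 lBLab m3 := fun c => by
      obtain ⟨g, rfl⟩ := MulAction.exists_smul_eq H (0 : Fin 2304) c
      rw [← c3]
      refine (num_comp (MulAction.toPerm g) fun p => ?_).symm
      exact ⟨fun h => adj_symm hK ((adj_rho hK g (pc 0) (pb p)).2 h),
        fun h => (adj_rho hK g (pc 0) (pb p)).1 (adj_symm hK h)⟩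
    have := num_sum_comm fun (p : Fin 1755) (c : Fin 2304) => adj K (pb p) (pc c)
    rw [Finset.sum_congr rfl (fun p _ => e1 p), Finset.sum_congr rfl (fun c _ => e2 c),
      Finset.sum_const, Finset.sum_const, smul_eq_mul, smul_eq_mul, Finset.card_univ, Finset.card_univ,
      Fintype.card_fin, Fintype.card_fin] at this
    exact this
  have hz1 : ¬ Nat.testBit m1 0 = true := by
    intro hb
    refine adj_irrefl hK (pb 0) ((h1 0).2 ?_)
    rw [show ((0 : Fin 1755) : ℕ) = 0 from rfl, l5]
    exact hb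
  have hz4 : ¬ Nat.testBit m4 0 = true := by
    intro hb
    refine adj_irrefl hK (pc 0) ((h4 0).2 ?_)
    rw [show ((0 : Fin 2304) : ℕ) = 0 from rfl, l6]
    exact hb
  obtain ⟨q1, r1⟩ := (pB_counts m1 h1m).resolve_left hz1
  obtain ⟨q2, r2⟩ := pC_counts m2 h2m
  obtain ⟨q3, r3⟩ := lB_counts m3 h3m
  obtain ⟨q4, r4⟩ := (lC_counts m4 h4m).resolve_left hz4
  have n1 : labCount 1755 pBLab m1 ≠ 474 := fun e => by
    rw [e] at q1
    exact Bool.noConfusion q1
  have n4 : labCount 2304 lCLab m4 ≠ 1755 := fun e => by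
    rw [e] at q4
    exact Bool.noConfusion q4
  simp only [List.mem_cons, List.not_mem_nil, or_false] at q2 q3
  have hx : labCount 2304 pCLab m2 = 1024 ∧ labCount 1755 lBLab m3 = 780 := by omega
  have b1 : labCount 1755 pBLab m1 = 730 := by omega
  have b4 : labCount 2304 lCLab m4 = 975 := by omega
  obtain rfl := r1 (by rw [b1]; rfl)
  obtain rfl := r2 (by rw [hx.1]; rfl)
  obtain rfl := r3 (by rw [hx.2]; rfl)
  obtain rfl := r4 (by rw [b4]; rfl)
  exact ⟨h1, h2, h3, h4⟩

variable {K' : Subgroup (Equiv.Perm Pt)}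

theorem adj_eq (hK : Good K) (hK' : Good K') (x y : Pt) : adj K x y ↔ adj K' x y := by
  obtain ⟨a1, a2, a3, a4⟩ := forced hK
  obtain ⟨b1, b2, b3, b4⟩ := forced hK'
  have hB : ∀ y, adj K (pb 0) y ↔ adj K' (pb 0) y := fun y => by
    rcases pt_cases y with rfl | ⟨q, rfl⟩ | ⟨c, rfl⟩
    · exact iff_of_true (adj_to_base hK 0) (adj_to_base hK' 0)
    · exact (a1 q).trans (b1 q).symm
    · exact (a2 c).trans (b2 c).symm
  have hC : ∀ y, adj K (pc 0) y ↔ adj K' (pc 0) y := fun y => by
    rcases pt_cases y with rfl | ⟨q, rfl⟩ | ⟨c, rfl⟩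
    · exact iff_of_false (adj_pc_base hK 0) (adj_pc_base hK' 0)
    · exact (a3 q).trans (b3 q).symm
    · exact (a4 c).trans (b4 c).symm
  rcases pt_cases x with rfl | ⟨p, rfl⟩ | ⟨c, rfl⟩
  · rw [adj_base hK, adj_base hK']
  · obtain ⟨g, rfl⟩ := MulAction.exists_smul_eq H (0 : Fin 1755) p
    obtain ⟨z, rfl⟩ := (rho g).surjective y
    rw [← rho_pb, adj_rho hK, adj_rho hK']
    exact hB z
  · obtain ⟨g, rfl⟩ := MulAction.exists_smul_eq H (0 : Fin 2304) c
    obtain ⟨z, rfl⟩ := (rho g).surjective y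
    rw [← rho_pc, adj_rho hK, adj_rho hK']
    exact hC z

/-- The common neighbours in the first orbit. -/
noncomputable def common (K : Subgroup (Equiv.Perm Pt)) (p q : Fin 1755) : ℕ :=
  num fun z => adj K (pb p) (pb z) ∧ adj K (pb q) (pb z)

theorem common_smul (hK : Good K) (g : H) (p q : Fin 1755) : common K (g • p) (g • q) = common K p q := by
  refine (num_comp (MulAction.toPerm g) fun z => ?_).symm
  rw [← adj_rho hK g (pb p), ← adj_rho hK g (pb q)]
  rfl

theorem adj_nb (hK : Good K) (q : Fin 1755) : adj K (pb 0) (pb q) ↔ nbBit q = true := by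
  have h := List.all_eq_true.1 label_facts q (List.mem_range.2 q.2)
  simp only [Bool.and_eq_true, beq_iff_eq] at h
  rw [h.1.2]
  exact (forced hK).1 q

theorem adj_inS (hK : Good K) (q : Fin 1755) : adj K (pc 0) (pb q) ↔ inS q = true := by
  have h := List.all_eq_true.1 label_facts q (List.mem_range.2 q.2)
  simp only [Bool.and_eq_true, beq_iff_eq] at h
  rw [h.2, (forced hK).2.2.1 q, show (2 : ℕ) = 2 ^ 1 from rfl, Nat.testBit_two_pow, decide_eq_true_eq]
  exact ⟨fun e => e ▸ Nat.beq_refl _, fun e => (Nat.eq_of_beq_eq_true e).symm⟩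

theorem common_zero (hK : Good K) (q : Fin 1755) :
    common K 0 q = valOf (col0 q) ∧ col0 q < 5 := by
  have hcol : col0 q = get16 pBLab q := by
    have h := List.all_eq_true.1 label_facts q (List.mem_range.2 q.2)
    simp only [Bool.and_eq_true] at h
    exact Nat.eq_of_beq_eq_true h.1.1
  let S : Subgroup H :=
    { carrier := {s | ∀ p, common K 0 (s • p) = common K 0 p}
      one_mem' := fun p => by rw [one_smul]
      mul_mem' := fun {a b} ha hb p => by rw [mul_smul, ha, hb]
      inv_mem' := fun {a} ha p => by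
        have := ha (a⁻¹ • p)
        rw [smul_inv_smul] at this
        exact this.symm }
  obtain ⟨hl, r, hr, s, hs, e⟩ := forest_spec pB_forest pGen (fun k hk p => by
      rw [pGen_smul (show k < 2 from hk), pTab]) S (fun k hk p => by
    conv_lhs => rw [← pGen_fix (show k < 2 from hk)]
    exact common_smul hK (pGen k) 0 p) q
  rw [roots_lengths.1] at hl
  refine ⟨?_, hcol ▸ hl⟩
  rw [← e, hs r, e, hcol]
  unfold common valOf
  rw [force_eq, ← hr, ← num_list (n := 1755)]
  refine num_congr fun z => ?_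
  rw [Bool.and_eq_true, adj_nb hK]
  refine and_congr_right fun _ => ?_
  rw [show adj K (pb r) (pb z) ↔ adj K (pb 0) (pb ((tr r)⁻¹ • z)) by
    rw [← adj_rho hK (tr r)⁻¹, rho_pb, rho_pb,
      show (tr r)⁻¹ • r = 0 from inv_smul_eq_iff.2 (tr_smul r).symm],
    adj_nb hK, tr, ← wd_winv, wd_smul]

theorem common_eq (hK : Good K) (p q : Fin 1755) :
    common K p q = valOf (colour p q) ∧ colour p q < 5 := by
  have e : common K 0 ((tr p)⁻¹ • q) = common K p q := by
    rw [← common_smul hK (tr p), tr_smul, smul_inv_smul]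
  rw [← e]
  exact common_zero hK _

theorem eq_rho_of_aut (hK : Good K) {σ : Equiv.Perm Pt} (h0 : σ base = base)
    (hσ : ∀ x y, adj K (σ x) (σ y) ↔ adj K x y) : ∃ g, σ = rho g := by
  classical
  have hB : ∀ y, isB (σ y) ↔ isB y := fun y => by
    rw [← adj_base hK, ← adj_base hK]
    conv_lhs => rw [← h0]
    exact hσ _ _
  have hex : ∀ p, ∃ q, σ (pb p) = pb q := fun p => by
    rcases pt_cases (σ (pb p)) with h | ⟨q, h⟩ | ⟨c, h⟩
    · exact absurd ((hB (pb p)).2 (isB_pb p)) (h ▸ not_isB_base)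
    · exact ⟨q, h⟩
    · exact absurd ((hB (pb p)).2 (isB_pb p)) (h ▸ not_isB_pc c)
  choose τ hτ using hex
  have hτinj : Function.Injective τ := fun p q h => by
    have := σ.injective ((hτ p).trans (by rw [h, hτ q]))
    simpa [pb] using this
  have hτbij : Function.Bijective τ := Finite.injective_iff_bijective.1 hτinj
  have hkeeps : Keeps τ := fun p q => by
    obtain ⟨e1, l1⟩ := common_eq hK (τ p) (τ q)
    obtain ⟨e2, l2⟩ := common_eq hK p q
    refine valOf_inj l1 l2 ?_
    rw [← e1, ← e2]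
    refine (num_comp (Equiv.ofBijective τ hτbij) fun z => ?_).symm
    show _ ↔ adj K (pb (τ p)) (pb (τ z)) ∧ adj K (pb (τ q)) (pb (τ z))
    rw [← hτ, ← hτ, ← hτ, hσ, hσ]
  obtain ⟨t, ht⟩ : ∃ t : H, τ 0 = t • (0 : Fin 1755) := ⟨tr (τ 0), (tr_smul _).symm⟩
  obtain ⟨g, -, hg⟩ := rigid (τ := fun p => t⁻¹ • τ p) (fun p q => by rw [colour_smul]; exact hkeeps p q)
    (by show t⁻¹ • τ 0 = 0; rw [ht, inv_smul_smul])
  refine ⟨t * g, Equiv.ext fun x => ?_⟩
  have hfixB : ∀ p, σ (pb p) = rho (t * g) (pb p) := fun p => by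
    rw [hτ, rho_pb, mul_smul, ← hg p, smul_inv_smul]
  rcases pt_cases x with rfl | ⟨p, rfl⟩ | ⟨c, rfl⟩
  · rw [h0, rho_base]
  · exact hfixB p
  -- a point of the second orbit is known by its neighbours in the first
  obtain ⟨d, hd⟩ : ∃ d, σ (pc c) = pc d := by
    rcases pt_cases (σ (pc c)) with h | ⟨q, h⟩ | ⟨d, h⟩
    · exact absurd (σ.injective (h.trans h0.symm)) (pc_ne_base c)
    · exact absurd ((hB (pc c)).1 (h ▸ isB_pb q)) (not_isB_pc c)
    · exact ⟨d, h⟩
  rw [hd, rho_pc]
  have hset : ∀ p, adj K (pc d) (pb p) ↔ adj K (pc ((t * g) • c)) (pb p) := fun p => by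
    obtain ⟨q, hq⟩ := MulAction.surjective (α := H) (β := Fin 1755) (t * g) p
    rw [← hq, ← rho_pb, ← rho_pc, adj_rho hK, ← hd, ← hfixB, hσ]
  have key : ∀ (i : Fin 2304) (p : Fin 1755),
      adj K (pc i) (pb p) ↔ inS ((wd (cWord i))⁻¹ • p : Fin 1755) = true := fun i p => by
    rw [← adj_inS hK, ← adj_rho hK (wd (cWord i)) (pc 0), rho_pc, rho_pb, exists_word_to_set, smul_inv_smul]
  refine congrArg pc (coset_injective ?_)
  rw [coset, coset, eq_comm, QuotientGroup.eq]
  intro p
  have h := hset (wd (cWord d) • p)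
  rw [key, key, inv_smul_smul, ← Bool.eq_iff_iff] at h
  rw [mul_smul]
  exact h.symm

/-- The group is determined. -/
theorem Good.le (hK : Good K) (hK' : Good K') : K ≤ K' := by
  intro k hk
  obtain ⟨k', hk', he⟩ := hK'.trans (k base)
  obtain ⟨g, hg⟩ := eq_rho_of_aut hK (σ := k'⁻¹ * k) (by
      rw [Equiv.Perm.mul_apply, ← he, inv_apply_perm])
    (fun x y => by
      rw [Equiv.Perm.mul_apply, Equiv.Perm.mul_apply, adj_eq hK hK', adj_smul hK' (inv_mem hk'),
        ← adj_eq hK hK', adj_smul hK hk])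
  have e : k = k' * rho g := by rw [← hg, mul_inv_cancel_left]
  exact e ▸ mul_mem hk' (hK'.mem g)

theorem Good.unique (hK : Good K) (hK' : Good K') : K = K' := le_antisymm (hK.le hK') (hK'.le hK)

end CfsgLib.RuRank
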