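import Cfsg.Agent.RuRank.Trans
import Cfsg.Agent.RuRank.Sets
import Cfsg.Agent.RuRank.DataInv
import Cfsg.Agent.RuRank.DataPart

/-!
The checks on the involutions fixing the first point, each paired with an element of order thirteen.
-/

set_option autoImplicit false
set_option maxRecDepth 100000
set_option maxHeartbeats 4000000

namespace CfsgLib.RuRank

/-- A product of the chain with given number on the points. -/
def zRun (n p : ℕ) : ℕ := prodRun (n / 2048) (n / 256 % 8) (n / 32 % 8) (n / 4 % 8) (n % 4) p

/-- The element of order thirteen on the points. -/
def xRun (p : ℕ) : ℕ := get16 lTab0 p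

/-- The kind of certificate of a product. -/
def kindOf (n : ℕ) : ℕ :=
  match certOf.find? fun e => Nat.beq e.1 n with
  | some e => e.2
  | none => 0

/-- A product squaring to the identity is the identity or has a certificate. -/
def scanChk (n : ℕ) : Bool :=
  !((List.range 5).all fun k => force (fixPt (5 - k)) fun f => Nat.beq (zRun n (zRun n f)) f) ||
    Nat.beq n 0 || !(Nat.beq (kindOf n) 0)

theorem scan_00 : block scanChk 0 1280 = true := by decide +kernel
theorem scan_01 : block scanChk 1280 1280 = true := by decide +kernel
theorem scan_02 : block scanChk 2560 1280 = true := by decide +kernel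
theorem scan_03 : block scanChk 3840 1280 = true := by decide +kernel
theorem scan_04 : block scanChk 5120 1280 = true := by decide +kernel
theorem scan_05 : block scanChk 6400 1280 = true := by decide +kernel
theorem scan_06 : block scanChk 7680 1280 = true := by decide +kernel
theorem scan_07 : block scanChk 8960 1280 = true := by decide +kernel
theorem scan_08 : block scanChk 10240 1280 = true := by decide +kernel
theorem scan_09 : block scanChk 11520 1280 = true := by decide +kernel
theorem scan_10 : block scanChk 12800 1280 = true := by decide +kernel
theorem scan_11 : block scanChk 14080 1280 = true := by decide +kernel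
theorem scan_12 : block scanChk 15360 1280 = true := by decide +kernel
theorem scan_13 : block scanChk 16640 1280 = true := by decide +kernel
theorem scan_14 : block scanChk 17920 1280 = true := by decide +kernel
theorem scan_15 : block scanChk 19200 1280 = true := by decide +kernel

theorem scanChk_true {n : ℕ} (hn : n < 20480) : scanChk n = true := by
  refine of_blocks (len := 1280) (count := 16) (fun k hk => ?_) hn
  interval_cases k
  exacts [scan_00, scan_01, scan_02, scan_03, scan_04, scan_05, scan_06, scan_07, scan_08, scan_09,
    scan_10, scan_11, scan_12, scan_13, scan_14, scan_15]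

/-- The product conjugates the element outside its powers. -/
def noPowChk (n : ℕ) : Bool :=
  (List.range 13).all fun j => (List.range 17).any fun k =>
    force (fixPt k) fun f => !(Nat.beq (zRun n (xRun (zRun n f))) (iterN xRun j f))

/-- A word in the element and the product on the points. -/
def mixRun (n : ℕ) : List ℕ → ℕ → ℕ
  | [], p => p
  | j :: w, p => force (mixRun n w p) fun q => if Nat.beq j 0 then xRun q else zRun n q

/-- A cycle of length sixteen. -/
def cycleChk (n k : ℕ) : Bool :=
  force (wordOfCode ((cycleCerts.getD k []).getD 1 0)).length fun _ =>
  force ((cycleCerts.getD k []).getD 2 0) fun p =>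
    Nat.blt p 1755 && Nat.beq (iterN (mixRun n (wordOfCode ((cycleCerts.getD k []).getD 1 0))) 16 p) p &&
      !(Nat.beq (iterN (mixRun n (wordOfCode ((cycleCerts.getD k []).getD 1 0))) 8 p) p)

/-- The facts about one certificate of a product. -/
def certChk (e : ℕ × ℕ) : Bool :=
  noPowChk e.1 &&
    (if Nat.blt e.2 1000 then Nat.blt 0 e.2 && Nat.ble e.2 250 && cycleChk e.1 (e.2 - 1)
     else Nat.blt (e.2 - 1000) 21 && Nat.beq (partInfo.getD (e.2 - 1000) (0, [], [], 0, 0)).1 e.1)

theorem cert_0 : block (fun i => certChk (certOf.getD i (0, 0))) 0 91 = true := by decide +kernel
theorem cert_1 : block (fun i => certChk (certOf.getD i (0, 0))) 91 90 = true := by decide +kernel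
theorem cert_2 : block (fun i => certChk (certOf.getD i (0, 0))) 181 90 = true := by decide +kernel

theorem certOf_length : certOf.length = 271 := by decide +kernel

theorem certChk_true {e : ℕ × ℕ} (he : e ∈ certOf) : certChk e = true := by
  obtain ⟨i, hi, rfl⟩ := List.getElem_of_mem he
  have hi' : i < 271 := certOf_length ▸ hi
  have key : ∀ lo len, block (fun i => certChk (certOf.getD i (0, 0))) lo len = true → lo ≤ i →
      i < lo + len → certChk certOf[i] = true := by
    intro lo len h h1 h2
    have h3 := List.all_eq_true.1 h (i - lo) (List.mem_range.2 (by omega))
    simp only at h3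
    rwa [Nat.add_sub_cancel' h1, List.getD_eq_getElem _ _ hi] at h3
  by_cases h1 : i < 91
  · exact key _ _ cert_0 (by omega) (by omega)
  by_cases h2 : i < 181
  · exact key _ _ cert_1 (by omega) (by omega)
  · exact key _ _ cert_2 (by omega) (by omega)

/-- The tables of a partition certificate. -/
def partTab (k : ℕ) : ℕ := partZs.getD k 0

/-- The labels of a partition certificate. -/
def partLabel (k p : ℕ) : ℕ := get16 (partLabs.getD k 0) p

/-- The points whose label lies in a set of labels. -/
def maskCount (k m : ℕ) : ℕ := ((List.range 1755).filter fun p => Nat.testBit m (partLabel k p)).length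

/-- The checks of a partition certificate. -/
def partChk (k : ℕ) : Bool :=
  match partInfo.getD k (0, [], [], 0, 0) with
  | (n, _, roots, best, j) =>
    block (fun p => Nat.beq (zRun n p) (get16 (partTab k) p)) 0 1755 &&
      forestOK 1755 [lTab0, partTab k] (partPars.getD k 0) (partDeps.getD k 0) (partLabs.getD k 0) roots &&
      Nat.blt best roots.length && roots.all (fun r => Nat.blt r 1755) &&
      ((List.range (2 ^ roots.length)).all fun m =>
        !(Nat.testBit m best) || !(Nat.beq (15600 % maskCount k m) 0) ||
          (Nat.blt j 2304 && Nat.beq m (2 ^ best))) &&
      (!(Nat.blt j 2304) || block (fun p =>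
        inS (run (winv (cWord j)) p) == !(Nat.beq (partLabel k p) best)) 0 1755)

theorem part_00 : partChk 0 = true := by decide +kernel
theorem part_01 : partChk 1 = true := by decide +kernel
theorem part_02 : partChk 2 = true := by decide +kernel
theorem part_03 : partChk 3 = true := by decide +kernel
theorem part_04 : partChk 4 = true := by decide +kernel
theorem part_05 : partChk 5 = true := by decide +kernel
theorem part_06 : partChk 6 = true := by decide +kernel
theorem part_07 : partChk 7 = true := by decide +kernel
theorem part_08 : partChk 8 = true := by decide +kernel
theorem part_09 : partChk 9 = true := by decide +kernel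
theorem part_10 : partChk 10 = true := by decide +kernel
theorem part_11 : partChk 11 = true := by decide +kernel
theorem part_12 : partChk 12 = true := by decide +kernel
theorem part_13 : partChk 13 = true := by decide +kernel
theorem part_14 : partChk 14 = true := by decide +kernel
theorem part_15 : partChk 15 = true := by decide +kernel
theorem part_16 : partChk 16 = true := by decide +kernel
theorem part_17 : partChk 17 = true := by decide +kernel
theorem part_18 : partChk 18 = true := by decide +kernel
theorem part_19 : partChk 19 = true := by decide +kernel
theorem part_20 : partChk 20 = true := by decide +kernel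

theorem partChk_true {k : ℕ} (hk : k < 21) : partChk k = true := by
  interval_cases k
  exacts [part_00, part_01, part_02, part_03, part_04, part_05, part_06, part_07, part_08, part_09,
    part_10, part_11, part_12, part_13, part_14, part_15, part_16, part_17, part_18, part_19, part_20]

theorem xRun_order : ((List.range 1755).all fun p => Nat.beq (iterN xRun 13 p) p) = true ∧
    (Nat.beq (xRun 0) 0) = false := by
  decide +kernel

end CfsgLib.RuRank
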