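import Cfsg.Agent.RuRank.InvChecks

/-!
Every subgroup of index 2304 of `²F₄(2)` is the stabiliser of one of the 2304 sets.
-/

set_option autoImplicit false
set_option maxRecDepth 100000
set_option maxHeartbeats 1000000

namespace CfsgLib.RuRank

/-- The element of order thirteen. -/
noncomputable def xEl : H := lGen 0

theorem xEl_smul (p : Fin 1755) : ((xEl • p : Fin 1755) : ℕ) = xRun p :=
  lGen_smul (k := 0) (by norm_num) p

theorem xEl_pow (n : ℕ) (p : Fin 1755) : ((xEl ^ n • p : Fin 1755) : ℕ) = iterN xRun n p := by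
  induction n with
  | zero => rw [pow_zero, one_smul]; rfl
  | succ n ih => rw [pow_succ', mul_smul, xEl_smul, ih, iterN, force_eq]

theorem orderOf_xEl : orderOf xEl = 13 := by
  haveI : Fact (Nat.Prime 13) := ⟨by norm_num⟩
  refine orderOf_eq_prime (eq_one_of_fixes _ fun p => Fin.ext ?_) fun e => ?_
  · rw [xEl_pow]
    exact Nat.eq_of_beq_eq_true (List.all_eq_true.1 xRun_order.1 p (List.mem_range.2 p.2))
  · have h := xRun_order.2
    rw [show xRun 0 = 0 from ((xEl_smul 0).symm.trans (by rw [e, one_smul]; rfl))] at h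
    exact Bool.noConfusion h

/-- The indices of a number. -/
def idxOf (n : ℕ) : Idx :=
  (⟨n / 2048 % 10, Nat.mod_lt _ (by norm_num)⟩, ⟨n / 256 % 8, Nat.mod_lt _ (by norm_num)⟩,
    ⟨n / 32 % 8, Nat.mod_lt _ (by norm_num)⟩, ⟨n / 4 % 8, Nat.mod_lt _ (by norm_num)⟩,
    ⟨n % 4, Nat.mod_lt _ (by norm_num)⟩)

theorem exists_number (x : Idx) : ∃ n < 20480, idxOf n = x := by
  obtain ⟨a, b, c, d, e⟩ := x
  refine ⟨2048 * a.val + 256 * b.val + 32 * c.val + 4 * d.val + e.val,
    by have := a.2; have := b.2; have := c.2; have := d.2; have := e.2; omega, ?_⟩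
  have := a.2; have := b.2; have := c.2; have := d.2; have := e.2
  simp only [idxOf, Prod.mk.injEq, Fin.ext_iff]
  refine ⟨?_, ?_, ?_, ?_, ?_⟩ <;> omega

/-- The product with given number. -/
noncomputable def zEl (n : ℕ) : H := prodEl (idxOf n)

theorem zEl_smul {n : ℕ} (hn : n < 20480) (p : Fin 1755) : ((zEl n • p : Fin 1755) : ℕ) = zRun n p := by
  rw [zEl, prodEl_smul, zRun]
  show prodRun (n / 2048 % 10) (n / 256 % 8) (n / 32 % 8) (n / 4 % 8) (n % 4) p = _
  rw [Nat.mod_eq_of_lt (show n / 2048 < 10 by omega)]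

theorem zEl_zero : zEl 0 = 1 := by
  refine eq_one_of_fixes _ fun p => Fin.ext ?_
  rw [zEl_smul (by norm_num)]
  have key : ∀ k, 1 ≤ k → k ≤ 5 → ∀ q < 1755, get16 ((lvlReps k).getD 0 0) q = q := by
    intro k h1 h5 q hq
    have h := repChk_true (i := 0) h1 h5 (by interval_cases k <;> simp [lvlSize])
    simp only [repChk, force_eq, Bool.and_eq_true] at h
    obtain ⟨-, h⟩ := h
    rw [if_pos (Nat.beq_refl 0)] at h
    exact Nat.eq_of_beq_eq_true (List.all_eq_true.1 h q (List.mem_range.2 hq))
  unfold zRun prodRun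
  simp only [force_eq, Nat.zero_div, Nat.zero_mod]
  rw [show repTabsAt5 = lvlReps 5 from rfl, key 5 (by norm_num) le_rfl p p.2,
    show repTabsAt4 = lvlReps 4 from rfl, key 4 (by norm_num) (by norm_num) p p.2,
    show repTabsAt3 = lvlReps 3 from rfl, key 3 (by norm_num) (by norm_num) p p.2,
    show repTabsAt2 = lvlReps 2 from rfl, key 2 (by norm_num) (by norm_num) p p.2,
    show repTabsAt1 = lvlReps 1 from rfl, key 1 le_rfl (by norm_num) p p.2]

attribute [local irreducible] zRun xRun lTab0 partTab partLabel forestOK bTab run inS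

/-- A group of order 15600 with an element of order sixteen normalises its elements of order thirteen. -/
theorem sixteen_normalises {M : Type*} [Group M] [Finite M] (hM : Nat.card M = 15600) {a x : M}
    (ha : 16 ∣ orderOf a) (hx : orderOf x = 13) (m : M) : m * x * m⁻¹ ∈ Subgroup.zpowers x := by
  haveI : Fact (Nat.Prime 2) := ⟨Nat.prime_two⟩
  haveI : Fact (Nat.Prime 13) := ⟨by norm_num⟩
  have h16 : (15600 : ℕ).factorization 2 = 4 := by
    rw [show (15600 : ℕ) = 2 ^ 4 * 975 by norm_num, Nat.factorization_mul_apply_of_coprime (by norm_num),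
      Nat.Prime.factorization_pow Nat.prime_two, Finsupp.single_eq_same,
      Nat.factorization_eq_zero_of_not_dvd (show ¬ 2 ∣ 975 by norm_num)]
  obtain ⟨c, hc⟩ := ha
  have hb : orderOf (a ^ c) = 16 := by
    rw [orderOf_pow_of_dvd (by have := orderOf_pos a; rintro rfl; omega) ⟨16, by rw [hc]; ring⟩, hc,
      Nat.mul_div_cancel _ (by have := orderOf_pos a; rcases Nat.eq_zero_or_pos c with rfl | h <;> omega)]
  let P : Sylow 2 M := Sylow.ofCard (Subgroup.zpowers (a ^ c)) (by rw [Nat.card_zpowers, hb, hM, h16]; norm_num)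
  have hP : IsCyclic P := by
    show IsCyclic (Subgroup.zpowers (a ^ c))
    infer_instance
  have hmin : (Nat.card M).minFac = 2 := by
    rw [hM]
    norm_num
  have hcompl := IsCyclic.isComplement' hmin hP
  set N := (MonoidHom.transferSylow P (hP.normalizer_le_centralizer hmin)).ker with hN
  have hPc : Nat.card P = 16 := by
    show Nat.card (Subgroup.zpowers (a ^ c)) = 16
    rw [Nat.card_zpowers, hb]
  have hNc : Nat.card N = 975 := by
    have h := hcompl.card_mul
    rw [hPc, hM] at h
    omega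
  have hxN : x ∈ N := by
    rw [← QuotientGroup.eq_one_iff, ← orderOf_eq_one_iff]
    have h1 : orderOf (QuotientGroup.mk' N x) ∣ 13 := hx ▸ orderOf_map_dvd _ x
    have h2 : orderOf (QuotientGroup.mk' N x) ∣ 16 := by
      have h := orderOf_dvd_natCard (QuotientGroup.mk' N x)
      rwa [show Nat.card (M ⧸ N) = 16 by rw [← Subgroup.index_eq_card, hcompl.symm.index_eq_card, hPc]] at h
    exact Nat.dvd_one.1 (Nat.dvd_gcd h1 h2)
  have h13 : (975 : ℕ).factorization 13 = 1 := by
    rw [show (975 : ℕ) = 13 ^ 1 * 75 by norm_num, Nat.factorization_mul_apply_of_coprime (by norm_num),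
      Nat.Prime.factorization_pow (by norm_num), Finsupp.single_eq_same,
      Nat.factorization_eq_zero_of_not_dvd (show ¬ 13 ∣ 75 by norm_num)]
  let Q : Sylow 13 N := Sylow.ofCard (Subgroup.zpowers (⟨x, hxN⟩ : N))
    (by rw [Nat.card_zpowers, ← Subgroup.orderOf_coe, hx, hNc, h13]; norm_num)
  have hQn : Nat.card (Sylow 13 N) = 1 := by
    have h1 := card_sylow_modEq_one 13 N
    have h2 := Sylow.card_dvd_index Q
    have hidx : (Q : Subgroup N).index = 75 := by
      have h := (Q : Subgroup N).card_mul_index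
      rw [show Nat.card (Q : Subgroup N) = 13 by
        show Nat.card (Subgroup.zpowers (⟨x, hxN⟩ : N)) = 13
        rw [Nat.card_zpowers, ← Subgroup.orderOf_coe, hx], hNc] at h
      omega
    rw [hidx] at h2
    have key : ∀ d ∈ Nat.divisors 75, d % 13 = 1 → d = 1 := by decide
    exact key _ (Nat.mem_divisors.2 ⟨h2, by norm_num⟩) (by simpa [Nat.ModEq] using h1)
  haveI : Subsingleton (Sylow 13 N) := (Nat.card_eq_one_iff_unique.1 hQn).1
  have hmem : m * x * m⁻¹ ∈ N := (MonoidHom.normal_ker _).conj_mem x hxN m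
  let y : N := ⟨m * x * m⁻¹, hmem⟩
  have hy : orderOf y = 13 := by
    rw [← Subgroup.orderOf_coe]
    show orderOf (MulAut.conj m x) = 13
    rw [MulEquiv.orderOf_eq, hx]
  have hQ' : (Sylow.ofCard (Subgroup.zpowers y) (by rw [Nat.card_zpowers, hy, hNc, h13]; norm_num) : Sylow 13 N) = Q :=
    Subsingleton.elim _ _
  have hmemQ : y ∈ Subgroup.zpowers (⟨x, hxN⟩ : N) := by
    have h := Subgroup.mem_zpowers y
    have e := congrArg (fun S : Sylow 13 N => (S : Subgroup N)) hQ'
    exact (show Subgroup.zpowers y = Subgroup.zpowers (⟨x, hxN⟩ : N) from e) ▸ h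
  obtain ⟨k, hk⟩ := hmemQ
  exact ⟨k, by have := congrArg Subtype.val hk; simpa [y] using this⟩

theorem eq_set_stab_of_mem {M : Subgroup H} (hM : Nat.card M = 15600) (hx : xEl ∈ M) :
    ∃ c : Fin 2304, M = MulAction.stabilizer H c := by
  classical
  have hos := Nat.card_congr (MulAction.orbitProdStabilizerEquivGroup M (0 : Fin 1755))
  rw [Nat.card_prod, hM] at hos
  set d := Nat.card (MulAction.stabilizer M (0 : Fin 1755))
  have horb : Nat.card (MulAction.orbit M (0 : Fin 1755)) ≤ 1755 := by
    have := Nat.card_le_card_of_injective (fun q : MulAction.orbit M (0 : Fin 1755) => q.1) Subtype.val_injective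
    simpa using this
  have hd80 : d ∣ 80 := by
    have h1 : d ∣ 15600 := Dvd.intro_left _ hos
    have h2 : d ∣ 20480 := by
      have h := Subgroup.card_dvd_of_injective
        (({ toFun := fun s => ⟨(s.1 : H), s.2⟩, map_one' := rfl, map_mul' := fun _ _ => rfl } :
          MulAction.stabilizer M (0 : Fin 1755) →* MulAction.stabilizer H (0 : Fin 1755)))
        fun s t h => Subtype.ext (Subtype.ext (congrArg Subtype.val h :))
      rwa [card_stab] at h
    exact Nat.dvd_gcd h1 h2
  have hd9 : 9 ≤ d := by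
    by_contra hlt
    have := Nat.mul_le_mul horb (show d ≤ 8 by omega)
    omega
  have hd2 : 2 ∣ d := by
    have key : ∀ e ∈ Nat.divisors 80, 9 ≤ e → 2 ∣ e := by decide
    exact key d (Nat.mem_divisors.2 ⟨hd80, by norm_num⟩) hd9
  haveI : Fact (Nat.Prime 2) := ⟨Nat.prime_two⟩
  obtain ⟨z, hz⟩ := exists_prime_orderOf_dvd_card' 2 hd2
  rw [← Subgroup.orderOf_coe, ← Subgroup.orderOf_coe] at hz
  have hzM : ((z.1 : M) : H) ∈ M := z.1.2
  have hz0 : ((z.1 : M) : H) • (0 : Fin 1755) = 0 := z.2
  generalize ((z.1 : M) : H) = g at hz hzM hz0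
  obtain ⟨idx, hidx⟩ := (mem_stab_iff g).1 hz0
  obtain ⟨n, hn, hni⟩ := exists_number idx
  have hgz : g = zEl n := by rw [zEl, hni, hidx]
  subst hgz
  have hsq : zEl n * zEl n = 1 := by
    rw [← sq]
    have h := pow_orderOf_eq_one (zEl n)
    rwa [hz] at h
  have hne : n ≠ 0 := by
    intro e
    rw [e, zEl_zero, orderOf_one] at hz
    omega
  have hscan := scanChk_true hn
  simp only [scanChk, Bool.or_eq_true, Bool.not_eq_true', force_eq] at hscan
  have hkind : kindOf n ≠ 0 := by
    rcases hscan with (h | h) | h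
    · exfalso
      rw [List.all_eq_false] at h
      obtain ⟨k, hk, hkf⟩ := h
      have hlt : 5 - k < 17 := by omega
      have := zEl_smul hn (zEl n • fPt ⟨5 - k, hlt⟩)
      rw [← mul_smul, hsq, one_smul, zEl_smul hn] at this
      exact hkf (by
        show Nat.beq (zRun n (zRun n (fixPt (5 - k)))) (fixPt (5 - k)) = true
        rw [show zRun n (zRun n (fixPt (5 - k))) = fixPt (5 - k) from this.symm]
        exact Nat.beq_refl _)
    · exact absurd (Nat.eq_of_beq_eq_true h) hne
    · intro e
      rw [e] at h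
      exact Bool.noConfusion h
  obtain ⟨e, hemem, hen, hek⟩ : ∃ e ∈ certOf, e.1 = n ∧ e.2 = kindOf n := by
    cases hf : certOf.find? fun e => Nat.beq e.1 n with
    | none => exact absurd (by rw [kindOf, hf]) hkind
    | some e =>
      exact ⟨e, List.mem_of_find?_eq_some hf,
        Nat.eq_of_beq_eq_true (List.find?_some hf :), by rw [kindOf, hf]⟩
  have hcert := certChk_true hemem
  simp only [certChk, Bool.and_eq_true] at hcert
  obtain ⟨hnp, hcase⟩ := hcert
  rw [hen] at hnp
  have hnonorm : zEl n * xEl * zEl n ∉ Subgroup.zpowers xEl := by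
    intro hmem
    obtain ⟨j, hj⟩ := (isOfFinOrder_of_finite xEl).mem_powers_iff_mem_zpowers.2 hmem
    simp only at hj
    have h := List.all_eq_true.1 hnp (j % 13) (List.mem_range.2 (Nat.mod_lt _ (by norm_num)))
    simp only [List.any_eq_true, List.mem_range, force_eq, Bool.not_eq_true'] at h
    obtain ⟨k, hk, hkf⟩ := h
    have e1 : (((zEl n * xEl * zEl n) • fPt ⟨k, hk⟩ : Fin 1755) : ℕ) = zRun n (xRun (zRun n (fixPt k))) := by
      rw [mul_smul, mul_smul, zEl_smul hn, xEl_smul, zEl_smul hn]
      rfl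
    have e2 : iterN xRun (j % 13) (fixPt k) = zRun n (xRun (zRun n (fixPt k))) := by
      rw [← e1, ← hj, ← pow_mod_orderOf xEl j, orderOf_xEl, xEl_pow]
      rfl
    rw [e2, show Nat.beq (zRun n (xRun (zRun n (fixPt k)))) (zRun n (xRun (zRun n (fixPt k)))) = true from
      Nat.beq_refl _] at hkf
    exact Bool.noConfusion hkf
  have hzinv : (zEl n)⁻¹ = zEl n := inv_eq_of_mul_eq_one_right hsq
  by_cases hlt : Nat.blt e.2 1000 = true
  · exfalso
    rw [if_pos hlt] at hcase
    simp only [Bool.and_eq_true] at hcase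
    obtain ⟨-, hcyc⟩ := hcase
    rw [hen] at hcyc
    simp only [cycleChk, force_eq, Bool.and_eq_true, Bool.not_eq_true', Nat.blt, Nat.ble_eq] at hcyc
    obtain ⟨⟨hp, h16⟩, h8⟩ := hcyc
    set w := wordOfCode ((cycleCerts.getD (e.2 - 1) []).getD 1 0)
    set p := (cycleCerts.getD (e.2 - 1) []).getD 2 0
    have hmix : ∀ w : List ℕ, ∃ a ∈ M, ∀ q : Fin 1755, ((a • q : Fin 1755) : ℕ) = mixRun n w q := by
      intro w
      induction w with
      | nil => exact ⟨1, one_mem _, fun q => by rw [one_smul]; rfl⟩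
      | cons j w ih =>
        obtain ⟨a, ha, hq⟩ := ih
        by_cases hj : Nat.beq j 0 = true
        · refine ⟨xEl * a, mul_mem hx ha, fun q => ?_⟩
          rw [mul_smul, xEl_smul, hq, mixRun, force_eq, if_pos hj]
        · refine ⟨zEl n * a, mul_mem hzM ha, fun q => ?_⟩
          rw [mul_smul, zEl_smul hn, hq, mixRun, force_eq, if_neg hj]
    obtain ⟨a, ha, haq⟩ := hmix w
    have hpow : ∀ (m : ℕ) (q : Fin 1755), ((a ^ m • q : Fin 1755) : ℕ) = iterN (mixRun n w) m q := by
      intro m q
      induction m with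
      | zero => rw [pow_zero, one_smul]; rfl
      | succ m ih => rw [pow_succ', mul_smul, haq, ih, iterN, force_eq]
    let q : Fin 1755 := ⟨p, by omega⟩
    have hfix : a ^ 16 • q = q := Fin.ext ((hpow 16 q).trans (Nat.eq_of_beq_eq_true h16))
    have hmove : a ^ 8 • q ≠ q := by
      intro heq
      have := (hpow 8 q).symm.trans (congrArg Fin.val heq)
      rw [show iterN (mixRun n w) 8 p = p from this, show Nat.beq p p = true from Nat.beq_refl p] at h8
      exact Bool.noConfusion h8
    have hper : MulAction.period a q = 16 := by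
      have h1 := MulAction.pow_smul_eq_iff_period_dvd.1 hfix
      obtain ⟨i, hi, he⟩ := (Nat.dvd_prime_pow Nat.prime_two (m := 4)).1 h1
      rcases Nat.lt_or_ge i 4 with hi4 | hi4
      · exfalso
        refine hmove (MulAction.pow_smul_eq_iff_period_dvd.2 ?_)
        rw [he]
        exact pow_dvd_pow 2 (by omega : i ≤ 3)
      · rw [he, show i = 4 by omega]
        norm_num
    have hord : 16 ∣ orderOf (⟨a, ha⟩ : M) := by
      rw [← Subgroup.orderOf_coe, ← hper]
      exact MulAction.period_dvd_orderOf a q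
    have hn' := sixteen_normalises hM hord (x := ⟨xEl, hx⟩) (by rw [← Subgroup.orderOf_coe]; exact orderOf_xEl)
      ⟨zEl n, hzM⟩
    obtain ⟨k, hk⟩ := hn'
    refine hnonorm ⟨k, ?_⟩
    have := congrArg Subtype.val hk
    simp only [SubgroupClass.coe_zpow, Subgroup.coe_mul, Subgroup.coe_inv] at this
    simp only [this, hzinv]
  · rw [if_neg hlt] at hcase
    simp only [Bool.and_eq_true, Nat.blt, Nat.ble_eq] at hcase
    obtain ⟨hk21, hpn⟩ := hcase
    set k := e.2 - 1000
    have hpn' := (Nat.eq_of_beq_eq_true hpn).trans hen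
    have hpart := partChk_true (k := k) (by omega)
    rcases hinfo : partInfo.getD k (0, [], [], 0, 0) with ⟨n', sizes, roots, best, j⟩
    rw [hinfo] at hpn'
    simp only at hpn'
    subst hpn'
    simp only [partChk, hinfo, Bool.and_eq_true] at hpart
    obtain ⟨⟨⟨⟨⟨htab, hforest⟩, hbest⟩, hroots⟩, hsets⟩, hS⟩ := hpart
    have hbest' : best < roots.length := Nat.le_of_ble_eq_true hbest
    have hztab : ∀ q : Fin 1755, ((zEl n' • q : Fin 1755) : ℕ) = get16 (partTab k) q := fun q => by
      have h := List.all_eq_true.1 htab q (List.mem_range.2 q.2)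
      rw [Nat.zero_add] at h
      rw [zEl_smul hn, Nat.eq_of_beq_eq_true h]
    have hconn := fun i : Fin 1755 => forest_spec hforest (fun k => if k = 0 then xEl else zEl n')
      (fun t ht q => by
        have ht' : t < 2 := ht
        interval_cases t
        · rw [if_pos rfl, xEl_smul, List.getD_cons_zero, xRun]
        · rw [if_neg (by norm_num), hztab, List.getD_cons_succ, List.getD_cons_zero])
      M (fun t _ => by
        by_cases h : t = 0
        · simp only [h, ↓reduceIte]; exact hx
        · simp only [h, ↓reduceIte]; exact hzM) i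
    have hrootlt : ∀ i < roots.length, roots.getD i 0 < 1755 := fun i hi => by
      have h := List.all_eq_true.1 hroots _ (List.getElem_mem hi)
      rw [List.getD_eq_getElem _ _ hi]
      exact Nat.le_of_ble_eq_true h
    let r₀ : Fin 1755 := ⟨roots.getD best 0, hrootlt best hbest'⟩
    -- the labels meeting the orbit
    let O := MulAction.orbit M r₀
    obtain ⟨m, hmlt, hm⟩ : ∃ m < 2 ^ roots.length, ∀ (i : ℕ) (hi : i < roots.length),
        Nat.testBit m i = decide ((⟨roots.getD i 0, hrootlt i hi⟩ : Fin 1755) ∈ O) := by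
      let f : Fin roots.length → Bool := fun i => decide ((⟨roots.getD i.1 0, hrootlt i.1 i.2⟩ : Fin 1755) ∈ O)
      refine ⟨Nat.ofBits f, Nat.ofBits_lt_two_pow f, fun i hi => ?_⟩
      rw [Nat.testBit_ofBits_lt f i hi]
    have hmem : ∀ p : Fin 1755, p ∈ O ↔ Nat.testBit m (partLabel k p) = true := by
      intro p
      obtain ⟨hl, r, hr, s, hs, hsr⟩ := hconn p
      rw [show partLabel k p = get16 (partLabs.getD k 0) p by rw [partLabel], hm _ hl, decide_eq_true_eq]
      have er : (⟨roots.getD (get16 (partLabs.getD k 0) p) 0, hrootlt _ hl⟩ : Fin 1755) = r := Fin.ext hr.symm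
      rw [er, ← MulAction.orbit_eq_iff, ← MulAction.orbit_eq_iff,
        show MulAction.orbit M p = MulAction.orbit M r by
          rw [← hsr]; exact MulAction.orbit_smul (⟨s, hs⟩ : M) r]
    have hcount : maskCount k m = Nat.card O := by
      have e : Nat.card O = ((Finset.univ : Finset (Fin 1755)).filter fun p : Fin 1755 =>
          Nat.testBit m (partLabel k p.val) = true).card := by
        rw [← Nat.card_eq_finsetCard]
        exact Nat.card_congr (Equiv.subtypeEquivRight fun p => by simp [hmem p])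
      rw [e, ← Finset.card_map Fin.valEmbedding, maskCount,
        ← List.toFinset_card_of_nodup (List.Nodup.filter _ List.nodup_range)]
      congr 1
      ext p
      simp only [Finset.mem_map, Finset.mem_filter, Finset.mem_univ, true_and, Fin.valEmbedding_apply,
        List.mem_toFinset, List.mem_filter, List.mem_range]
      exact ⟨fun ⟨h1, h2⟩ => ⟨⟨p, h1⟩, h2, rfl⟩, fun ⟨a, ha, ea⟩ => ea ▸ ⟨a.2, ha⟩⟩
    have hdvd : Nat.card O ∣ 15600 := by
      rw [← hM, ← Nat.card_congr (MulAction.orbitProdStabilizerEquivGroup M r₀), Nat.card_prod]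
      exact Dvd.intro _ rfl
    have h := List.all_eq_true.1 hsets m (List.mem_range.2 hmlt)
    simp only [Bool.or_eq_true, Bool.not_eq_true', Bool.and_eq_true] at h
    have hb : Nat.testBit m best = true := by
      rw [hm best hbest', decide_eq_true_eq]
      exact MulAction.mem_orbit_self r₀
    rw [hb, hcount, Nat.mod_eq_zero_of_dvd hdvd, show Nat.beq 0 0 = true from rfl] at h
    simp only [Bool.false_eq_true, false_or, reduceCtorEq] at h
    obtain ⟨hj, hm2⟩ := h
    have hj' : j < 2304 := Nat.le_of_ble_eq_true hj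
    have hmeq := Nat.eq_of_beq_eq_true hm2
    rw [hj] at hS
    simp only [Bool.not_true, Bool.false_or] at hS
    have hin : ∀ p : Fin 1755, inS (((wd (cWord j))⁻¹ • p : Fin 1755) : ℕ) = decide (p ∉ O) := by
      intro p
      have h1 := List.all_eq_true.1 hS p (List.mem_range.2 p.2)
      rw [Nat.zero_add, beq_iff_eq] at h1
      rw [← wd_winv, wd_smul, h1, decide_not, Bool.not_inj_iff]
      rw [Bool.eq_iff_iff, decide_eq_true_eq, hmem, hmeq, Nat.testBit_two_pow, decide_eq_true_eq]
      exact ⟨fun e => (Nat.eq_of_beq_eq_true e).symm, fun e => e ▸ Nat.beq_refl _⟩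
    refine ⟨⟨j, hj'⟩, Subgroup.eq_of_le_of_card_ge (fun g hg => ?_) (by rw [card_stab_set, hM])⟩
    rw [MulAction.mem_stabilizer_iff, ← coset_injective.eq_iff, smul_coset, coset]
    show QuotientGroup.mk (g * wd (cWord j)) = (QuotientGroup.mk (wd (cWord j)) : H ⧸ LS)
    rw [eq_comm, QuotientGroup.eq]
    intro p
    have hOg : ∀ q, g • q ∈ O ↔ q ∈ O := fun q => by
      rw [← MulAction.orbit_eq_iff, ← MulAction.orbit_eq_iff,
        show g • q = (⟨g, hg⟩ : M) • q from rfl, MulAction.orbit_smul]
    have h1 := hin (g • wd (cWord j) • p)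
    rw [decide_eq_decide.2 (not_congr (hOg (wd (cWord j) • p))), ← hin, inv_smul_smul] at h1
    rw [mul_smul, mul_smul]
    exact h1

theorem eq_set_stab_of_card {M : Subgroup H} (hM : Nat.card M = 15600) :
    ∃ c : Fin 2304, M = MulAction.stabilizer H c := by
  haveI : Fact (Nat.Prime 13) := ⟨by norm_num⟩
  obtain ⟨y, hy⟩ := exists_prime_orderOf_dvd_card' (G := M) 13 (by rw [hM]; norm_num)
  rw [← Subgroup.orderOf_coe] at hy
  have h13 : ((35942400 : ℕ)).factorization 13 = 1 := by
    rw [show (35942400 : ℕ) = 13 ^ 1 * 2764800 by norm_num, Nat.factorization_mul_apply_of_coprime (by norm_num),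
      Nat.Prime.factorization_pow (by norm_num), Finsupp.single_eq_same,
      Nat.factorization_eq_zero_of_not_dvd (show ¬ 13 ∣ 2764800 by norm_num)]
  let P : Sylow 13 H := Sylow.ofCard (Subgroup.zpowers (y : H)) (by rw [Nat.card_zpowers, hy, card_H, h13]; norm_num)
  let Q : Sylow 13 H := Sylow.ofCard (Subgroup.zpowers xEl) (by rw [Nat.card_zpowers, orderOf_xEl, card_H, h13]; norm_num)
  obtain ⟨g, hg⟩ := MulAction.exists_smul_eq H P Q
  let M' : Subgroup H := M.map (MulAut.conj g).toMonoidHom
  have hx : xEl ∈ M' := by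
    have h1 : xEl ∈ ((g • P : Sylow 13 H) : Subgroup H) := by rw [hg]; exact Subgroup.mem_zpowers _
    rw [Sylow.coe_subgroup_smul] at h1
    obtain ⟨v, hv, hve⟩ := h1
    refine ⟨v, ?_, hve⟩
    exact (show Subgroup.zpowers (y : H) ≤ M from Subgroup.zpowers_le.2 y.2) hv
  have hM' : Nat.card M' = 15600 := by
    rw [← hM]
    exact Subgroup.card_map_of_injective (K := M) (f := (MulAut.conj g).toMonoidHom) (MulAut.conj g).injective
  obtain ⟨c, hc⟩ := eq_set_stab_of_mem hM' hx
  refine ⟨g⁻¹ • c, Subgroup.eq_of_le_of_card_ge (fun m hm => ?_) (by rw [card_stab_set, hM])⟩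
  have h1 : g * m * g⁻¹ ∈ M' := ⟨m, hm, rfl⟩
  rw [hc, MulAction.mem_stabilizer_iff, mul_smul, mul_smul] at h1
  rw [MulAction.mem_stabilizer_iff, eq_inv_smul_iff]
  exact h1

end CfsgLib.RuRank
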