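import Cfsg.Agent.RuRank.Graph
import Cfsg.Agent.RuRank.DataRu
import Cfsg.Agent.Rudvalis.Classes

/-!
The Rudvalis group on 4060 classes is a group of the determined kind.
-/

set_option autoImplicit false
set_option maxRecDepth 100000
set_option maxHeartbeats 1000000

namespace CfsgLib.RuRank

open Cfsg CfsgLib.RuLattice CfsgLib.Rudvalis CfsgLib.CosetEnum

/-- The number of a point. -/
def numPt : Pt → ℕ
  | none => 0
  | some (Sum.inl p) => 1 + p.val
  | some (Sum.inr c) => 1756 + c.val

theorem numPt_base : numPt base = 0 := rfl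

theorem numPt_pb (p : Fin 1755) : numPt (pb p) = 1 + p.val := rfl

theorem numPt_pc (c : Fin 2304) : numPt (pc c) = 1756 + c.val := rfl

theorem numPt_lt (x : Pt) : numPt x < 4060 := by
  rcases pt_cases x with rfl | ⟨p, rfl⟩ | ⟨c, rfl⟩
  · rw [numPt_base]; norm_num
  · rw [numPt_pb]; omega
  · rw [numPt_pc]; omega

theorem numPt_injective : Function.Injective numPt := by
  intro x y h
  rcases pt_cases x with rfl | ⟨p, rfl⟩ | ⟨c, rfl⟩ <;> rcases pt_cases y with rfl | ⟨q, rfl⟩ | ⟨d, rfl⟩ <;>
    simp only [numPt_base, numPt_pb, numPt_pc] at h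
  all_goals first
    | rfl
    | omega
    | exact congrArg pb (Fin.ext (by omega))
    | exact congrArg pc (Fin.ext (by omega))

theorem phi_ok : ((List.range 4060).all fun i =>
    Nat.blt (get16 phiTab i) 4060 && Nat.beq (get16 phiInv (get16 phiTab i)) i) = true := by
  decide +kernel

theorem phi_lt {i : ℕ} (hi : i < 4060) : get16 phiTab i < 4060 := by
  have h := List.all_eq_true.1 phi_ok i (List.mem_range.2 hi)
  simp only [Bool.and_eq_true] at h
  exact Nat.le_of_ble_eq_true h.1

theorem phi_inv {i : ℕ} (hi : i < 4060) : get16 phiInv (get16 phiTab i) = i := by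
  have h := List.all_eq_true.1 phi_ok i (List.mem_range.2 hi)
  simp only [Bool.and_eq_true] at h
  exact Nat.eq_of_beq_eq_true h.2

/-- The class of a point. -/
noncomputable def clsPt (x : Pt) : Cls := ⟨get16 phiTab (numPt x), phi_lt (numPt_lt x)⟩

theorem clsPt_bijective : Function.Bijective clsPt := by
  refine (Fintype.bijective_iff_injective_and_card _).2 ⟨fun x y h => numPt_injective ?_, ?_⟩
  · rw [← phi_inv (numPt_lt x), ← phi_inv (numPt_lt y)]
    exact congrArg (fun c : Cls => get16 phiInv c.val) h
  · simp only [Fintype.card_option, Fintype.card_sum, Fintype.card_fin]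

/-- The classes as the points. -/
noncomputable def ptCls : Pt ≃ Cls := Equiv.ofBijective clsPt clsPt_bijective

/-- The Rudvalis group on the points. -/
noncomputable def ruPt : Spor.Ru →* Equiv.Perm Pt :=
  ((ptCls.symm.permCongrHom).toMonoidHom).comp ruHom

theorem ruPt_apply (r : Spor.Ru) (x : Pt) : ruPt r x = ptCls.symm (ruHom r (ptCls x)) := rfl

theorem ruPt_injective : Function.Injective ruPt :=
  (ptCls.symm.permCongrHom).injective.comp ruHom_injective

/-- The image of a numbered point under a letter. -/
def fullImg (j i : ℕ) : ℕ :=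
  if Nat.beq i 0 then 0
  else if Nat.blt i 1756 then 1 + get16 (bTab j) (i - 1)
  else 1756 + get16 (cTab j) (i - 1756)

/-- A word of the lattice group and a letter agree at a point. -/
def ruChk (j i : ℕ) : Bool :=
  Nat.beq (act (ruWords.getD j []) (4 * get16 phiTab i) / 4) (get16 phiTab (fullImg (2 * j) i))

theorem ruWords_lt : ∀ j < 2, ∀ l ∈ ruWords.getD j [], l < 22 := by decide +kernel

theorem ruChk_0a : block (ruChk 0) 0 1015 = true := by decide +kernel
theorem ruChk_0b : block (ruChk 0) 1015 1015 = true := by decide +kernel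
theorem ruChk_0c : block (ruChk 0) 2030 1015 = true := by decide +kernel
theorem ruChk_0d : block (ruChk 0) 3045 1015 = true := by decide +kernel
theorem ruChk_1a : block (ruChk 1) 0 1015 = true := by decide +kernel
theorem ruChk_1b : block (ruChk 1) 1015 1015 = true := by decide +kernel
theorem ruChk_1c : block (ruChk 1) 2030 1015 = true := by decide +kernel
theorem ruChk_1d : block (ruChk 1) 3045 1015 = true := by decide +kernel

theorem ruChk_true {j i : ℕ} (hj : j < 2) (hi : i < 4060) : ruChk j i = true := by
  refine of_blocks (len := 1015) (count := 4) (fun k hk => ?_) hi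
  interval_cases j <;> interval_cases k
  exacts [ruChk_0a, ruChk_0b, ruChk_0c, ruChk_0d, ruChk_1a, ruChk_1b, ruChk_1c, ruChk_1d]

theorem numPt_letter (j : ℕ) (x : Pt) : numPt (rho (letter j) x) = fullImg j (numPt x) := by
  rcases pt_cases x with rfl | ⟨p, rfl⟩ | ⟨c, rfl⟩
  · rw [rho_base, numPt_base, fullImg, if_pos (Nat.beq_refl 0)]
  · rw [rho_pb, numPt_pb, numPt_pb, letter_smul, fullImg,
      if_neg (fun h => by have := Nat.eq_of_beq_eq_true h; omega),
      if_pos (show Nat.blt (1 + p.val) 1756 = true by simp only [Nat.blt, Nat.ble_eq]; omega),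
      Nat.add_sub_cancel_left]
  · rw [rho_pc, numPt_pc, numPt_pc, letter_smul_set, fullImg,
      if_neg (fun h => by have := Nat.eq_of_beq_eq_true h; omega),
      if_neg (show ¬ Nat.blt (1756 + c.val) 1756 = true by simp only [Nat.blt, Nat.ble_eq]; omega),
      Nat.add_sub_cancel_left]

theorem letter_mem_ru {j : ℕ} (hj : j < 2) : rho (letter (2 * j)) ∈ ruPt.range := by
  refine ⟨QuotientGroup.mk (gword E (ruWords.getD j [])), Equiv.ext fun x => ?_⟩
  rw [ruPt_apply, Equiv.symm_apply_eq, ruHom_mk, clsHom_apply]
  refine Fin.ext ?_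
  show (moved (gword E (ruWords.getD j [])) (rep (ptCls x))).val / 4 = _
  rw [moved_word _ (ruWords_lt j hj)]
  show act (ruWords.getD j []) (4 * get16 phiTab (numPt x)) / 4 = get16 phiTab (numPt (rho (letter (2 * j)) x))
  rw [numPt_letter]
  exact Nat.eq_of_beq_eq_true (ruChk_true hj (numPt_lt x))

theorem rho_mem_ru (g : H) : rho g ∈ ruPt.range := by
  refine induction_H (P := fun g => rho g ∈ ruPt.range) ?_ (fun j g ih => ?_) g
  · rw [map_one]; exact one_mem _
  rw [map_mul]
  refine mul_mem ?_ ih
  have h0 := letter_mem_ru (j := 0) (by norm_num)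
  have h2 := letter_mem_ru (j := 1) (by norm_num)
  have hm : letter j = letter (j % 4) := Subtype.ext (by simp [letter, rootsOf])
  have hx : ∀ k, rho (letter k) ∈ ruPt.range → rho (letter (Nat.xor k 1)) ∈ ruPt.range := fun k hk => by
    rw [letter_xor, map_inv]
    exact inv_mem hk
  rw [hm]
  have h4 := Nat.mod_lt j (show 4 > 0 by norm_num)
  interval_cases e : j % 4
  exacts [h0, hx 0 h0, h2, hx 2 h2]

theorem rho_injective : Function.Injective rho := by
  intro g h e
  refine eq_of_smul_eq_smul (α := Fin 1755) fun p => ?_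
  have := congrArg (fun σ : Equiv.Perm Pt => σ (pb p)) e
  simp only [rho_pb] at this
  exact Sum.inl_injective (Option.some_injective _ this)

theorem good_ru : Good ruPt.range := by
  classical
  have htr : ∀ x, ∃ k ∈ ruPt.range, k base = x := fun x => by
    haveI := CfsgLib.Rudvalis.pretransitive
    obtain ⟨r, hr⟩ := MulAction.exists_smul_eq Spor.Ru (ptCls base) (ptCls x)
    refine ⟨ruPt r, ⟨r, rfl⟩, ?_⟩
    rw [ruPt_apply, Equiv.symm_apply_eq]
    exact hr
  refine ⟨htr, rho_mem_ru, ?_⟩
  set K := ruPt.range
  let R : H →* MulAction.stabilizer K base :=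
    { toFun := fun g => ⟨⟨rho g, rho_mem_ru g⟩, rho_base g⟩
      map_one' := Subtype.ext (Subtype.ext (map_one rho))
      map_mul' := fun a b => Subtype.ext (Subtype.ext (map_mul rho a b)) }
  haveI : MulAction.IsPretransitive K Pt :=
    (MulAction.isPretransitive_iff_base base).2 fun x => by
      obtain ⟨k, hk, e⟩ := htr x
      exact ⟨⟨k, hk⟩, e⟩
  have hR : Function.Injective R := fun a b h =>
    rho_injective (congrArg (fun s : MulAction.stabilizer K base => (s.1 : Equiv.Perm Pt)) h)
  have hcard : Nat.card H = Nat.card (MulAction.stabilizer K base) := by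
    have h := (MulAction.stabilizer K base).card_mul_index
    rw [MulAction.index_stabilizer_of_transitive, ← Nat.card_congr (MonoidHom.ofInjective ruPt_injective).toEquiv,
      card_Ru] at h
    have hp : Nat.card Pt = 4060 := by
      rw [Nat.card_eq_fintype_card, Fintype.card_option, Fintype.card_sum, Fintype.card_fin, Fintype.card_fin]
    rw [hp] at h
    rw [card_H]
    omega
  have hs := (Nat.bijective_iff_injective_and_card R).2 ⟨hR, hcard⟩
  intro k hk hb
  obtain ⟨g, hg⟩ := hs.2 ⟨⟨k, hk⟩, hb⟩
  exact ⟨g, (congrArg (fun s : MulAction.stabilizer K base => (s.1 : Equiv.Perm Pt)) hg).symm⟩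

/-- A group of the determined kind is the Rudvalis group. -/
theorem iso_of_good {K : Subgroup (Equiv.Perm Pt)} (hK : Good K) : Spor.IsoRu K :=
  ⟨(MulEquiv.subgroupCongr (hK.unique good_ru)).trans (MonoidHom.ofInjective ruPt_injective).symm⟩

end CfsgLib.RuRank
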