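import Cfsg.Agent.RuRank.Basic
import Cfsg.Agent.RuRank.DataSylow

/-!
Every subgroup of index 1755 of `²F₄(2)` is a point stabiliser: a Sylow 2-subgroup has no orbit of five points.
-/

set_option autoImplicit false
set_option maxRecDepth 100000
set_option maxHeartbeats 2000000

namespace CfsgLib.RuRank

open Cfsg.Lie CfsgLib.Chevalley CfsgLib.TwistedLie CfsgLib.TwistedLie.F4

local notation "K" => ZMod 2

/-- The table of a positive element. -/
def uTab (k : ℕ) : ℕ := [uTab0, uTab1, uTab2].getD k 0

/-- A positive element. -/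
noncomputable def uGen (k : ℕ) : H := wd (uWords.getD k [])

theorem u_ok : ∀ k < 3, TitsMultiplier.sameP (rootsW (uWords.getD k [])) (uRoots.getD k []) = true ∧
    (∀ r ∈ uRoots.getD k [], 24 ≤ r ∧ r < 48) := by
  decide +kernel

theorem uTab_ok : ∀ k < 3, block (fun p => Nat.beq (run (uWords.getD k []) p) (get16 (uTab k) p)) 0 1755 = true := by
  decide +kernel

theorem el_positive : ∀ {w : List ℕ}, (∀ r ∈ w, 24 ≤ r ∧ r < 48) →
    TitsInvolutions.el K w ∈ chevF4.posUnipotent K := by
  intro w hw
  induction w with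
  | nil => rw [TitsInvolutions.el_nil]; exact one_mem _
  | cons r w ih =>
    rw [TitsInvolutions.el_cons]
    obtain ⟨h1, h2⟩ := hw r List.mem_cons_self
    refine mul_mem (Subgroup.subset_closure ⟨r, 1, ?_, ?_⟩) (ih fun x hx => hw x (List.mem_cons_of_mem _ hx))
    · exact (Sys.pos_iff sysF4 r).mpr ⟨h1, h2⟩
    · rfl

/-- The positive part. -/
noncomputable def UU : Subgroup H :=
  (chevF4.posUnipotent K ⊓ twistedF4 K 1).subgroupOf (twistedF4 K 1)

theorem card_UU : Nat.card UU = 4096 := by
  rw [UU, Nat.card_congr (Subgroup.subgroupOfEquivOfLe inf_le_right).toEquiv]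
  exact (card_U TitsInvolutions.card_field).trans (by norm_num)

theorem uGen_mem {k : ℕ} (hk : k < 3) : uGen k ∈ UU := by
  obtain ⟨h1, h2⟩ := u_ok k hk
  rw [UU, Subgroup.mem_subgroupOf, uGen, wd_val,
    TitsMultiplier.el_eq_of_sameP (rootsW_range _) (fun r hr => (h2 r hr).2) h1]
  refine ⟨el_positive h2, ?_⟩
  have := (wd (uWords.getD k [])).2
  rw [wd_val, TitsMultiplier.el_eq_of_sameP (rootsW_range _) (fun r hr => (h2 r hr).2) h1] at this
  exact this

theorem uGen_smul {k : ℕ} (hk : k < 3) (p : Fin 1755) :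
    ((uGen k • p : Fin 1755) : ℕ) = get16 (uTab k) p := by
  have h := List.all_eq_true.1 (uTab_ok k hk) p (List.mem_range.2 p.2)
  rw [Nat.zero_add] at h
  rw [uGen, wd_smul, Nat.eq_of_beq_eq_true h]

/-- A product of positive elements. -/
noncomputable def uProd : List ℕ → H
  | [] => 1
  | k :: w => uGen k * uProd w

/-- A code of a product read on the points. -/
def uRun (c p : ℕ) : ℕ := runT uTab (wordOfCode c) p

theorem uProd_spec : ∀ w : List ℕ, (∀ k ∈ w, k < 3) →
    uProd w ∈ UU ∧ ∀ p : Fin 1755, ((uProd w • p : Fin 1755) : ℕ) = runT uTab w p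
  | [], _ => ⟨one_mem _, fun p => by rw [uProd, one_smul]; rfl⟩
  | k :: w, h => by
    obtain ⟨h1, h2⟩ := uProd_spec w fun x hx => h x (List.mem_cons_of_mem _ hx)
    have hk := h k List.mem_cons_self
    exact ⟨mul_mem (uGen_mem hk) h1, fun p => by rw [uProd, mul_smul, uGen_smul hk, h2, runT_cons]⟩

/-- Six images of a point. -/
def six (q : ℕ) : List ℕ :=
  q :: (List.range 5).map fun i => uRun ((uCert >>> (12 * (5 * q + i))) &&& 4095) q

/-- The six images are distinct. -/
def sixChk (q : ℕ) : Bool :=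
  if Nat.beq q 1749 || Nat.beq q 1753 || Nat.beq q 1754 then true
  else ((List.range 5).all fun i => (wordOfCode ((uCert >>> (12 * (5 * q + i))) &&& 4095)).all fun k => Nat.blt k 3) &&
    decide (six q).Nodup

theorem sixChk_0 : block sixChk 0 351 = true := by decide +kernel
theorem sixChk_1 : block sixChk 351 351 = true := by decide +kernel
theorem sixChk_2 : block sixChk 702 351 = true := by decide +kernel
theorem sixChk_3 : block sixChk 1053 351 = true := by decide +kernel
theorem sixChk_4 : block sixChk 1404 351 = true := by decide +kernel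

theorem sixChk_true {q : ℕ} (hq : q < 1755) : sixChk q = true := by
  refine of_blocks (len := 351) (count := 5) (fun k hk => ?_) hq
  interval_cases k
  exacts [sixChk_0, sixChk_1, sixChk_2, sixChk_3, sixChk_4]

open scoped Classical in
theorem six_le_card {S : Finset (Fin 1755)} (hS : ∀ u ∈ UU, ∀ p ∈ S, u • p ∈ S) {p : Fin 1755} (hp : p ∈ S)
    (hne : p.val ≠ 1749 ∧ p.val ≠ 1753 ∧ p.val ≠ 1754) : 6 ≤ S.card := by
  have h := sixChk_true p.2
  simp only [sixChk] at h
  rw [if_neg (by
    simp only [Bool.or_eq_true, not_or]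
    exact ⟨⟨fun e => hne.1 (Nat.eq_of_beq_eq_true e), fun e => hne.2.1 (Nat.eq_of_beq_eq_true e)⟩,
      fun e => hne.2.2 (Nat.eq_of_beq_eq_true e)⟩)] at h
  simp only [Bool.and_eq_true, List.all_eq_true, List.mem_range, Nat.blt, Nat.ble_eq, decide_eq_true_eq] at h
  obtain ⟨hw, hnd⟩ := h
  have hsub : (six p.val).toFinset ⊆ S.map Fin.valEmbedding := by
    intro x hx
    rw [List.mem_toFinset, six, List.mem_cons, List.mem_map] at hx
    rw [Finset.mem_map]
    rcases hx with rfl | ⟨i, hi, rfl⟩
    · exact ⟨p, hp, rfl⟩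
    · have hlt : ∀ k ∈ wordOfCode ((uCert >>> (12 * (5 * p.val + i))) &&& 4095), k < 3 :=
        fun k hk => hw i (List.mem_range.1 hi) k hk
      obtain ⟨hu, hv⟩ := uProd_spec _ hlt
      exact ⟨_, hS _ hu p hp, hv p⟩
  have := Finset.card_le_card hsub
  rwa [Finset.card_map, List.toFinset_card_of_nodup hnd, six, List.length_cons, List.length_map,
    List.length_range] at this

open scoped Classical in
theorem eq_stab_of_card {M : Subgroup H} (hM : Nat.card M = 20480) :
    ∃ p : Fin 1755, M = MulAction.stabilizer H p := by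
  haveI : Fact (Nat.Prime 2) := ⟨Nat.prime_two⟩
  haveI : Fintype H := Fintype.ofFinite _
  -- an orbit of odd length
  obtain ⟨p, hodd⟩ : ∃ p : Fin 1755, Odd (Nat.card (MulAction.orbit M p)) := by
    by_contra hcon
    simp only [not_exists, Nat.not_odd_iff_even] at hcon
    have h2 : 2 ∣ ∑ ω : MulAction.orbitRel.Quotient M (Fin 1755), Nat.card ω.orbit :=
      Finset.dvd_sum fun ω _ => by
        induction ω using Quotient.inductionOn' with
        | h a => exact even_iff_two_dvd.1 (hcon a)
    rw [← Nat.card_sigma, ← Nat.card_congr (MulAction.selfEquivSigmaOrbits' M (Fin 1755)), Nat.card_fin] at h2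
    omega
  have hos := Nat.card_congr (MulAction.orbitProdStabilizerEquivGroup M p)
  rw [Nat.card_prod, hM] at hos
  set s := Nat.card (MulAction.orbit M p)
  have hs5 : s ∣ 5 := by
    have h2 : Nat.Coprime s (2 ^ 12) := Nat.Coprime.pow_right _ (Nat.coprime_two_right.2 hodd)
    exact h2.dvd_of_dvd_mul_left (m := 2 ^ 12) (Dvd.intro _ (hos.trans (by norm_num)))
  -- a Sylow subgroup of the whole group inside
  have hUp : IsPGroup 2 UU := IsPGroup.of_card (n := 12) (by rw [card_UU]; norm_num)
  have hidx : ¬ 2 ∣ UU.index := by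
    have h := UU.card_mul_index
    rw [card_UU, card_H] at h
    omega
  obtain ⟨V⟩ : Nonempty (Sylow 2 M) := inferInstance
  have hVc : Nat.card V = 4096 := by
    rw [V.card_eq_multiplicity, hM, show (20480 : ℕ) = 2 ^ 12 * 5 by norm_num,
      Nat.factorization_mul_apply_of_coprime (by norm_num), Nat.Prime.factorization_pow Nat.prime_two,
      Nat.factorization_eq_zero_of_not_dvd (show ¬ 2 ∣ 5 by norm_num), Finsupp.single_eq_same]
    norm_num
  let V' : Subgroup H := (V : Subgroup M).map M.subtype
  have hV' : IsPGroup 2 V' := V.isPGroup'.map _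
  have hVidx : ¬ 2 ∣ V'.index := by
    have h := V'.card_mul_index
    rw [show Nat.card V' = 4096 from (Nat.card_congr ((V : Subgroup M).equivMapOfInjective _
      (Subgroup.subtype_injective M)).toEquiv).symm.trans hVc, card_H] at h
    omega
  obtain ⟨g, hg⟩ := MulAction.exists_smul_eq H (hUp.toSylow hidx) (hV'.toSylow hVidx)
  have hconj : ∀ u ∈ UU, g * u * g⁻¹ ∈ M := by
    intro u hu
    have hu' : MulAut.conj g u ∈ ((g • hUp.toSylow hidx : Sylow 2 H) : Subgroup H) := by
      rw [Sylow.coe_subgroup_smul]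
      exact Subgroup.smul_mem_pointwise_smul u (MulAut.conj g) _ hu
    rw [hg] at hu'
    obtain ⟨v, -, hv⟩ := hu'
    rw [MulAut.conj_apply] at hv
    exact hv ▸ v.2
  let S : Finset (Fin 1755) := (Finset.univ.filter fun q => g • q ∈ MulAction.orbit M p)
  have hSc : S.card = s := by
    rw [← Nat.card_eq_finsetCard]
    exact Nat.card_congr
      { toFun := fun q => ⟨g • q.1, (Finset.mem_filter.1 q.2).2⟩
        invFun := fun r => ⟨g⁻¹ • r.1, Finset.mem_filter.2 ⟨Finset.mem_univ _, by rw [smul_inv_smul]; exact r.2⟩⟩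
        left_inv := fun q => Subtype.ext (inv_smul_smul _ _)
        right_inv := fun r => Subtype.ext (smul_inv_smul _ _) }
  have hSU : ∀ u ∈ UU, ∀ q ∈ S, u • q ∈ S := by
    intro u hu q hq
    refine Finset.mem_filter.2 ⟨Finset.mem_univ _, ?_⟩
    have e : g • u • q = (⟨g * u * g⁻¹, hconj u hu⟩ : M) • g • q := by
      show g • u • q = (g * u * g⁻¹) • g • q
      rw [← mul_smul, ← mul_smul, inv_mul_cancel_right]
    rw [e]
    exact MulAction.mem_orbit_of_mem_orbit _ (Finset.mem_filter.1 hq).2
  have hsmall : s = 1 := by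
    rcases (Nat.dvd_prime (by norm_num : Nat.Prime 5)).1 hs5 with h | h
    · exact h
    · exfalso
      have hsub : S.map Fin.valEmbedding ⊆ {1749, 1753, 1754} := by
        intro x hx
        obtain ⟨q, hq, rfl⟩ := Finset.mem_map.1 hx
        simp only [Fin.valEmbedding_apply, Finset.mem_insert, Finset.mem_singleton]
        by_contra hcon
        simp only [not_or] at hcon
        have := six_le_card hSU hq hcon
        omega
      have h1 := Finset.card_le_card hsub
      rw [Finset.card_map, hSc, h] at h1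
      simp at h1
  refine ⟨p, Subgroup.eq_of_le_of_card_ge (fun m hm => ?_) (by rw [card_stab, hM])⟩
  have hone : ∀ r ∈ MulAction.orbit M p, r = p := by
    intro r hr
    haveI : Subsingleton (MulAction.orbit M p) :=
      (Nat.card_eq_one_iff_unique.1 hsmall).1
    exact congrArg Subtype.val (Subsingleton.elim (⟨r, hr⟩ : MulAction.orbit M p) ⟨p, MulAction.mem_orbit_self p⟩)
  exact MulAction.mem_stabilizer_iff.2 (hone _ ⟨⟨m, hm⟩, rfl⟩)

end CfsgLib.RuRank
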