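import Cfsg.Agent.RuRank.Basic
import Cfsg.Agent.RuRank.DataColour
import Cfsg.Agent.RuRank.DataTrans

/-!
The stabiliser of a point of the 1755 as products along a chain of five further points.
-/

set_option autoImplicit false
set_option maxRecDepth 100000
set_option maxHeartbeats 2000000

namespace CfsgLib.RuRank

/-- A fixed point. -/
def fixPt (k : ℕ) : ℕ := fixPts.getD k 0

/-- Words of the generators of a level. -/
def lvlWords : ℕ → List (List ℕ)
  | 1 => genWordsAt1 | 2 => genWordsAt2 | 3 => genWordsAt3 | 4 => genWordsAt4 | _ => genWordsAt5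

/-- Tables of the generators of a level. -/
def lvlGens : ℕ → List ℕ
  | 1 => genTabsAt1 | 2 => genTabsAt2 | 3 => genTabsAt3 | 4 => genTabsAt4 | _ => genTabsAt5

/-- Tables of the representatives of a level. -/
def lvlReps : ℕ → List ℕ
  | 1 => repTabsAt1 | 2 => repTabsAt2 | 3 => repTabsAt3 | 4 => repTabsAt4 | _ => repTabsAt5

/-- The trees of a level. -/
def lvlPar : ℕ → List ℕ
  | 1 => repParAt1 | 2 => repParAt2 | 3 => repParAt3 | 4 => repParAt4 | _ => repParAt5

/-- The points of a level. -/
def lvlCell : ℕ → List ℕ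
  | 1 => cellAt1 | 2 => cellAt2 | 3 => cellAt3 | 4 => cellAt4 | _ => cellAt5

/-- The size of a level. -/
def lvlSize : ℕ → ℕ
  | 1 => 10 | 2 => 8 | 3 => 8 | 4 => 8 | _ => 4

/-- A generator of a level and its table agree and keep the colours. -/
def genChk (k g p : ℕ) : Bool :=
  force (get16 ((lvlGens k).getD g 0) p) fun q =>
    Nat.beq (run ((lvlWords k).getD g []) p) q && Nat.beq (get16 colours q) (get16 colours p)

theorem genChk_ok1 : ((List.range 2).all fun g => block (genChk 1 g) 0 1755) = true := by decide +kernel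
theorem genChk_ok2a : ((List.range 3).all fun g => block (genChk 2 g) 0 1755) = true := by decide +kernel
theorem genChk_ok2b : ((List.range 3).all fun g => block (genChk 2 (g + 3)) 0 1755) = true := by decide +kernel
theorem genChk_ok3a : ((List.range 4).all fun g => block (genChk 3 g) 0 1755) = true := by decide +kernel
theorem genChk_ok3b : ((List.range 3).all fun g => block (genChk 3 (g + 4)) 0 1755) = true := by decide +kernel
theorem genChk_ok4a : ((List.range 4).all fun g => block (genChk 4 g) 0 1755) = true := by decide +kernel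
theorem genChk_ok4b : ((List.range 3).all fun g => block (genChk 4 (g + 4)) 0 1755) = true := by decide +kernel
theorem genChk_ok5 : ((List.range 3).all fun g => block (genChk 5 g) 0 1755) = true := by decide +kernel

theorem lens_ok : ∀ k < 6, 1 ≤ k → (lvlGens k).length = [0, 2, 6, 7, 7, 3].getD k 0 ∧
    (lvlReps k).length = lvlSize k ∧ (lvlPar k).length = lvlSize k ∧ (lvlCell k).length = lvlSize k ∧
    (lvlCell k).Nodup ∧ ∀ i < lvlSize k, (lvlCell k).getD i 0 < 1755 := by
  decide +kernel

theorem genChk_true {k g p : ℕ} (h1 : 1 ≤ k) (h5 : k ≤ 5) (hg : g < (lvlGens k).length) (hp : p < 1755) :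
    genChk k g p = true := by
  rw [(lens_ok k (by omega) h1).1] at hg
  have key : ∀ (n o : ℕ), ((List.range n).all fun g => block (genChk k (g + o)) 0 1755) = true →
      o ≤ g → g < o + n → genChk k g p = true := by
    intro n o h ho hn
    have := List.all_eq_true.1 h (g - o) (List.mem_range.2 (by omega))
    rw [Nat.sub_add_cancel ho] at this
    have h2 := List.all_eq_true.1 this p (List.mem_range.2 hp)
    rwa [Nat.zero_add] at h2
  interval_cases k
  · exact key 2 0 genChk_ok1 (by omega) (by simpa using hg)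
  · by_cases h : g < 3
    · exact key 3 0 genChk_ok2a (by omega) (by omega)
    · exact key 3 3 genChk_ok2b (by omega) (by simp at hg; omega)
  · by_cases h : g < 4
    · exact key 4 0 genChk_ok3a (by omega) (by omega)
    · exact key 3 4 genChk_ok3b (by omega) (by simp at hg; omega)
  · by_cases h : g < 4
    · exact key 4 0 genChk_ok4a (by omega) (by omega)
    · exact key 3 4 genChk_ok4b (by omega) (by simp at hg; omega)
  · exact key 3 0 genChk_ok5 (by omega) (by simpa using hg)

/-- A representative is the identity or a generator times an earlier one, and moves the point as stated. -/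
def repChk (k i : ℕ) : Bool :=
  force ((lvlPar k).getD i 0) fun e => force ((lvlReps k).getD i 0) fun T =>
    Nat.beq (get16 T (fixPt k)) ((lvlCell k).getD i 0) &&
      ((List.range k).all fun j => Nat.beq (get16 T (fixPt j)) (fixPt j)) &&
      (if Nat.beq i 0 then (List.range 1755).all fun p => Nat.beq (get16 T p) p
       else Nat.blt (e / 16) i && Nat.blt (e % 16) (lvlGens k).length &&
        force ((lvlReps k).getD (e / 16) 0) fun T' => force ((lvlGens k).getD (e % 16) 0) fun U =>
          (List.range 1755).all fun p => Nat.beq (get16 U (get16 T' p)) (get16 T p))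

theorem repChk_ok1 : ((List.range 10).all (repChk 1)) = true := by decide +kernel
theorem repChk_ok2 : ((List.range 8).all (repChk 2)) = true := by decide +kernel
theorem repChk_ok3 : ((List.range 8).all (repChk 3)) = true := by decide +kernel
theorem repChk_ok4 : ((List.range 8).all (repChk 4)) = true := by decide +kernel
theorem repChk_ok5 : ((List.range 4).all (repChk 5)) = true := by decide +kernel

theorem repChk_true {k i : ℕ} (h1 : 1 ≤ k) (h5 : k ≤ 5) (hi : i < lvlSize k) : repChk k i = true := by
  interval_cases k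
  · exact List.all_eq_true.1 repChk_ok1 i (List.mem_range.2 hi)
  · exact List.all_eq_true.1 repChk_ok2 i (List.mem_range.2 hi)
  · exact List.all_eq_true.1 repChk_ok3 i (List.mem_range.2 hi)
  · exact List.all_eq_true.1 repChk_ok4 i (List.mem_range.2 hi)
  · exact List.all_eq_true.1 repChk_ok5 i (List.mem_range.2 hi)

theorem fixPt_lt : ∀ k < 17, fixPt k < 1755 := by decide +kernel

theorem fixPt_zero : fixPt 0 = 0 := by decide +kernel

/-- A fixed point as a point. -/
def fPt (k : Fin 17) : Fin 1755 := ⟨fixPt k, fixPt_lt k k.2⟩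

theorem fPt_zero : fPt 0 = 0 := Fin.ext fixPt_zero

/-- The suborbit of a point seen from the first. -/
def col0 (q : Fin 1755) : ℕ := get16 colours q

/-- An element realising a table with the properties of a representative. -/
theorem exists_rep {k i : ℕ} (h1 : 1 ≤ k) (h5 : k ≤ 5) (hi : i < lvlSize k) :
    ∃ t : H, (∀ p : Fin 1755, ((t • p : Fin 1755) : ℕ) = get16 ((lvlReps k).getD i 0) p) ∧
      (∀ p : Fin 1755, col0 (t • p) = col0 p) := by
  induction i using Nat.strong_induction_on with
  | _ i ih =>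
    have h := repChk_true h1 h5 hi
    simp only [repChk, force_eq, Bool.and_eq_true] at h
    obtain ⟨-, h⟩ := h
    by_cases h0 : Nat.beq i 0 = true
    · rw [if_pos h0] at h
      refine ⟨1, fun p => ?_, fun p => by rw [one_smul]⟩
      rw [one_smul]
      exact (Nat.eq_of_beq_eq_true (List.all_eq_true.1 h p (List.mem_range.2 p.2))).symm
    · rw [if_neg h0] at h
      simp only [Bool.and_eq_true, List.all_eq_true, List.mem_range, Nat.blt, Nat.ble_eq] at h
      obtain ⟨⟨hlt, hg⟩, hall⟩ := h
      obtain ⟨t, ht, htc⟩ := ih _ hlt (by omega)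
      have hgen : ∀ p : Fin 1755,
          ((wd ((lvlWords k).getD ((lvlPar k).getD i 0 % 16) []) • p : Fin 1755) : ℕ) =
              get16 ((lvlGens k).getD ((lvlPar k).getD i 0 % 16) 0) p ∧
            col0 (wd ((lvlWords k).getD ((lvlPar k).getD i 0 % 16) []) • p) = col0 p := by
        intro p
        have hc := genChk_true h1 h5 hg p.2
        simp only [genChk, force_eq, Bool.and_eq_true, Nat.beq_eq] at hc
        have e : ((wd ((lvlWords k).getD ((lvlPar k).getD i 0 % 16) []) • p : Fin 1755) : ℕ) =
            get16 ((lvlGens k).getD ((lvlPar k).getD i 0 % 16) 0) p := by rw [wd_smul, hc.1]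
        exact ⟨e, by rw [col0, col0, e, hc.2]⟩
      refine ⟨wd ((lvlWords k).getD ((lvlPar k).getD i 0 % 16) []) * t, fun p => ?_, fun p => ?_⟩
      · rw [mul_smul, (hgen _).1, ht]
        exact Nat.eq_of_beq_eq_true (hall p p.2)
      · rw [mul_smul, (hgen _).2, htc]

/-- A representative. -/
noncomputable def repEl (k i : ℕ) : H :=
  if h : 1 ≤ k ∧ k ≤ 5 ∧ i < lvlSize k then (exists_rep h.1 h.2.1 h.2.2).choose else 1

theorem repEl_spec {k i : ℕ} (h1 : 1 ≤ k) (h5 : k ≤ 5) (hi : i < lvlSize k) :
    (∀ p : Fin 1755, ((repEl k i • p : Fin 1755) : ℕ) = get16 ((lvlReps k).getD i 0) p) ∧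
      (∀ p : Fin 1755, col0 (repEl k i • p) = col0 p) := by
  rw [repEl, dif_pos ⟨h1, h5, hi⟩]
  exact (exists_rep h1 h5 hi).choose_spec

attribute [irreducible] repEl

theorem repEl_fix {k i : ℕ} (h1 : 1 ≤ k) (h5 : k ≤ 5) (hi : i < lvlSize k) (j : Fin 17) (hj : j.val < k) :
    repEl k i • fPt j = fPt j := by
  refine Fin.ext ?_
  rw [(repEl_spec h1 h5 hi).1]
  have h := repChk_true h1 h5 hi
  simp only [repChk, force_eq, Bool.and_eq_true, List.all_eq_true, List.mem_range] at h
  exact Nat.eq_of_beq_eq_true (h.1.2 j hj)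

theorem repEl_move {i : ℕ} {k : Fin 17} (h1 : 1 ≤ k.val) (h5 : k.val ≤ 5) (hi : i < lvlSize k) :
    ((repEl k i • fPt k : Fin 1755) : ℕ) = (lvlCell k).getD i 0 := by
  rw [(repEl_spec h1 h5 hi).1]
  have h := repChk_true h1 h5 hi
  simp only [repChk, force_eq, Bool.and_eq_true] at h
  exact Nat.eq_of_beq_eq_true h.1.1

/-- Mixed radix indices. -/
abbrev Idx := Fin 10 × Fin 8 × Fin 8 × Fin 8 × Fin 4

/-- A product along the chain. -/
noncomputable def prodEl (x : Idx) : H :=
  repEl 1 x.1 * (repEl 2 x.2.1 * (repEl 3 x.2.2.1 * (repEl 4 x.2.2.2.1 * repEl 5 x.2.2.2.2)))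

/-- The table of a product along the chain. -/
def prodRun (a b c d e p : ℕ) : ℕ :=
  force (get16 (repTabsAt5.getD e 0) p) fun p => force (get16 (repTabsAt4.getD d 0) p) fun p =>
  force (get16 (repTabsAt3.getD c 0) p) fun p => force (get16 (repTabsAt2.getD b 0) p) fun p =>
  get16 (repTabsAt1.getD a 0) p

theorem prodEl_smul (x : Idx) (p : Fin 1755) :
    ((prodEl x • p : Fin 1755) : ℕ) = prodRun x.1 x.2.1 x.2.2.1 x.2.2.2.1 x.2.2.2.2 p := by
  obtain ⟨a, b, c, d, e⟩ := x
  simp only [prodEl, mul_smul, prodRun, force_eq]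
  rw [(repEl_spec (k := 1) (by norm_num) (by norm_num) a.2).1,
    (repEl_spec (k := 2) (by norm_num) (by norm_num) b.2).1,
    (repEl_spec (k := 3) (by norm_num) (by norm_num) c.2).1,
    (repEl_spec (k := 4) (by norm_num) (by norm_num) d.2).1,
    (repEl_spec (k := 5) (by norm_num) (by norm_num) e.2).1]
  rfl

theorem prodEl_fix_zero (x : Idx) : prodEl x • (0 : Fin 1755) = 0 := by
  obtain ⟨a, b, c, d, e⟩ := x
  rw [← fPt_zero]
  simp only [prodEl, mul_smul]
  rw [repEl_fix (k := 5) (by norm_num) (by norm_num) e.2 0 (by norm_num),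
    repEl_fix (k := 4) (by norm_num) (by norm_num) d.2 0 (by norm_num),
    repEl_fix (k := 3) (by norm_num) (by norm_num) c.2 0 (by norm_num),
    repEl_fix (k := 2) (by norm_num) (by norm_num) b.2 0 (by norm_num),
    repEl_fix (k := 1) (by norm_num) (by norm_num) a.2 0 (by norm_num)]

theorem repEl_inj {k : Fin 17} (h1 : 1 ≤ k.val) (h5 : k.val ≤ 5) {i i' : ℕ} (hi : i < lvlSize k)
    (hi' : i' < lvlSize k) {r r' : H} (hr : r • fPt k = fPt k) (hr' : r' • fPt k = fPt k)
    (h : repEl k i * r = repEl k i' * r') : i = i' ∧ r = r' := by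
  have e := congrArg (fun g : H => ((g • fPt k : Fin 1755) : ℕ)) h
  simp only [mul_smul, hr, hr', repEl_move h1 h5 hi, repEl_move h1 h5 hi'] at e
  obtain ⟨-, -, -, hc, hn, -⟩ := lens_ok k (by omega) h1
  have hii : i = i' := by
    rw [List.getD_eq_getElem _ _ (hc.symm ▸ hi), List.getD_eq_getElem _ _ (hc.symm ▸ hi')] at e
    exact hn.getElem_inj_iff.1 e
  subst hii
  exact ⟨rfl, mul_left_cancel h⟩

theorem prodEl_injective : Function.Injective prodEl := by
  rintro ⟨a, b, c, d, e⟩ ⟨a', b', c', d', e'⟩ h
  simp only [prodEl] at h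
  have f : ∀ (k : ℕ) (i : ℕ) (j : Fin 17), 1 ≤ k → k ≤ 5 → i < lvlSize k → j.val < k →
      repEl k i • fPt j = fPt j := fun k i j a b c d => repEl_fix a b c j d
  obtain ⟨ha, h⟩ := repEl_inj (k := 1) (by decide) (by decide) a.2 a'.2
    (by simp only [mul_smul]
        rw [f 5 e 1 (by decide) le_rfl e.2 (by decide), f 4 d 1 (by decide) (by decide) d.2 (by decide),
          f 3 c 1 (by decide) (by decide) c.2 (by decide), f 2 b 1 (by decide) (by decide) b.2 (by decide)])
    (by simp only [mul_smul]
        rw [f 5 e' 1 (by decide) le_rfl e'.2 (by decide), f 4 d' 1 (by decide) (by decide) d'.2 (by decide),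
          f 3 c' 1 (by decide) (by decide) c'.2 (by decide), f 2 b' 1 (by decide) (by decide) b'.2 (by decide)]) h
  obtain ⟨hb, h⟩ := repEl_inj (k := 2) (by decide) (by decide) b.2 b'.2
    (by simp only [mul_smul]
        rw [f 5 e 2 (by decide) le_rfl e.2 (by decide), f 4 d 2 (by decide) (by decide) d.2 (by decide),
          f 3 c 2 (by decide) (by decide) c.2 (by decide)])
    (by simp only [mul_smul]
        rw [f 5 e' 2 (by decide) le_rfl e'.2 (by decide), f 4 d' 2 (by decide) (by decide) d'.2 (by decide),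
          f 3 c' 2 (by decide) (by decide) c'.2 (by decide)]) h
  obtain ⟨hc, h⟩ := repEl_inj (k := 3) (by decide) (by decide) c.2 c'.2
    (by simp only [mul_smul]
        rw [f 5 e 3 (by decide) le_rfl e.2 (by decide), f 4 d 3 (by decide) (by decide) d.2 (by decide)])
    (by simp only [mul_smul]
        rw [f 5 e' 3 (by decide) le_rfl e'.2 (by decide), f 4 d' 3 (by decide) (by decide) d'.2 (by decide)]) h
  obtain ⟨hd, h⟩ := repEl_inj (k := 4) (by decide) (by decide) d.2 d'.2
    (f 5 e 4 (by decide) le_rfl e.2 (by decide)) (f 5 e' 4 (by decide) le_rfl e'.2 (by decide)) h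
  obtain ⟨he, -⟩ := repEl_inj (k := 5) (by decide) (by decide) e.2 e'.2 (r := 1) (r' := 1)
    (one_smul _ _) (one_smul _ _) (by rw [mul_one, mul_one]; exact h)
  simp only [Fin.ext ha, Fin.ext hb, Fin.ext hc, Fin.ext hd, Fin.ext he]

attribute [irreducible] prodEl

theorem mem_stab_iff (g : H) : g • (0 : Fin 1755) = 0 ↔ ∃ x, g = prodEl x := by
  refine ⟨fun hg => ?_, fun ⟨x, hx⟩ => hx ▸ prodEl_fix_zero x⟩
  let f : Idx → MulAction.stabilizer H (0 : Fin 1755) := fun x => ⟨prodEl x, prodEl_fix_zero x⟩
  have hinj : Function.Injective f := fun x y h => prodEl_injective (congrArg Subtype.val h)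
  have hf : Function.Bijective f :=
    hinj.bijective_of_nat_card_le
      (by rw [card_stab]; simp only [Idx, Nat.card_prod, Nat.card_fin, le_refl])
  obtain ⟨x, hx⟩ := hf.2 ⟨g, hg⟩
  exact ⟨x, (congrArg Subtype.val hx).symm⟩

/-- The stabiliser of the first point keeps the suborbits. -/
theorem col0_smul {g : H} (hg : g • (0 : Fin 1755) = 0) (p : Fin 1755) : col0 (g • p) = col0 p := by
  obtain ⟨⟨a, b, c, d, e⟩, rfl⟩ := (mem_stab_iff g).1 hg
  unfold prodEl
  simp only [mul_smul]
  rw [(repEl_spec (k := 1) (by norm_num) (by norm_num) a.2).2,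
    (repEl_spec (k := 2) (by norm_num) (by norm_num) b.2).2,
    (repEl_spec (k := 3) (by norm_num) (by norm_num) c.2).2,
    (repEl_spec (k := 4) (by norm_num) (by norm_num) d.2).2,
    (repEl_spec (k := 5) (by norm_num) (by norm_num) e.2).2]

end CfsgLib.RuRank
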