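import Cfsg.Agent.RuRank.Sylow
import Cfsg.Agent.RuRank.Involution
import Cfsg.Agent.RuRank.Graph

/-!
A rank three group with the given suborbits acts on the standard 4060 points.
-/

set_option autoImplicit false
set_option maxRecDepth 100000
set_option maxHeartbeats 1000000

universe u

namespace CfsgLib.RuRank

/-- An orbit whose point stabilisers look like those of a standard transitive action is that action. -/
theorem orbit_param {n : ℕ} [MulAction H (Fin n)] [MulAction.IsPretransitive H (Fin n)] {Ω : Type u} {S : Type*}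
    [Group S] [MulAction S Ω] (φ : H ≃* S) (b : Ω) (hn : (MulAction.orbit S b).ncard = n)
    (hstab : ∀ M : Subgroup H, n * Nat.card M = Nat.card H → ∃ i : Fin n, M = MulAction.stabilizer H i) :
    ∃ f : Fin n → Ω, Function.Injective f ∧ (∀ i, f i ∈ MulAction.orbit S b) ∧
      ∀ (g : H) (i : Fin n), f (g • i) = φ g • f i := by
  let M : Subgroup H := (MulAction.stabilizer S b).comap φ.toMonoidHom
  have hcard : n * Nat.card M = Nat.card H := by
    have e1 : Nat.card M = Nat.card (MulAction.stabilizer S b) :=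
      Nat.card_congr (φ.toEquiv.subtypeEquiv fun g => Iff.rfl)
    have e2 := Nat.card_congr (MulAction.orbitProdStabilizerEquivGroup S b)
    rw [Nat.card_prod, Nat.card_coe_set_eq, hn] at e2
    rw [e1, e2, Nat.card_congr φ.toEquiv]
  obtain ⟨i₀, hi₀⟩ := hstab M hcard
  choose t ht using fun i : Fin n => MulAction.exists_smul_eq H i₀ i
  have key : ∀ g h : H, g • i₀ = h • i₀ ↔ φ g • b = φ h • b := fun g h => by
    rw [← inv_smul_eq_iff (g := h), ← inv_smul_eq_iff (g := φ h), ← mul_smul, ← mul_smul, ← map_inv, ← map_mul,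
      ← MulAction.mem_stabilizer_iff, ← hi₀]
    exact Iff.rfl
  refine ⟨fun i => φ (t i) • b, fun i j h => ?_, fun i => MulAction.mem_orbit _ _, fun g i => ?_⟩
  · rw [← ht i, ← ht j]
    exact (key _ _).2 h
  · rw [← mul_smul, ← map_mul]
    exact (key _ _).1 (by rw [mul_smul, ht, ht])

theorem exists_good {Ω : Type u} [Fintype Ω] (hΩ : Fintype.card Ω = 4060) (G : Subgroup (Equiv.Perm Ω))
    [MulAction.IsPretransitive G Ω] (a : Ω) (e : MulAction.stabilizer G a ≃* H) (b c : Ω)
    (hb : (MulAction.orbit (MulAction.stabilizer G a) b).ncard = 1755)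
    (hc : (MulAction.orbit (MulAction.stabilizer G a) c).ncard = 2304) :
    ∃ K : Subgroup (Equiv.Perm Pt), Good K ∧ Nonempty (G ≃* K) := by
  classical
  obtain ⟨f₁, i₁, o₁, q₁⟩ := orbit_param e.symm b hb fun M hM => eq_stab_of_card (by rw [card_H] at hM; omega)
  obtain ⟨f₂, i₂, o₂, q₂⟩ := orbit_param e.symm c hc fun M hM => eq_set_stab_of_card (by rw [card_H] at hM; omega)
  have hfix : ∀ (s : MulAction.stabilizer G a), s • a = a := fun s => s.2
  have hna : ∀ x, 1 < (MulAction.orbit (MulAction.stabilizer G a) x).ncard →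
      a ∉ MulAction.orbit (MulAction.stabilizer G a) x := by
    intro x hx ha
    rw [← MulAction.orbit_eq_iff.2 ha] at hx
    have hone : MulAction.orbit (MulAction.stabilizer G a) a = {a} := by
      ext y
      simp only [MulAction.mem_orbit_iff, Set.mem_singleton_iff]
      exact ⟨fun ⟨s, hs⟩ => hs ▸ hfix s, fun hy => ⟨1, by rw [hy, one_smul]⟩⟩
    rw [hone, Set.ncard_singleton] at hx
    exact absurd hx (lt_irrefl 1)
  let f : Pt → Ω := fun x => x.elim a (Sum.elim f₁ f₂)
  have hinj : Function.Injective f := by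
    intro x y h
    rcases x with _ | p | i <;> rcases y with _ | q | j <;>
      simp only [f, Option.elim_none, Option.elim_some, Sum.elim_inl, Sum.elim_inr] at h
    · rfl
    · exact absurd (h.symm ▸ o₁ q) (hna b (by rw [hb]; norm_num))
    · exact absurd (h.symm ▸ o₂ j) (hna c (by rw [hc]; norm_num))
    · exact absurd (h ▸ o₁ p) (hna b (by rw [hb]; norm_num))
    · rw [i₁ h]
    · exfalso
      have h1 := MulAction.orbit_eq_iff.2 (o₁ p)
      have h2 := MulAction.orbit_eq_iff.2 (o₂ j)
      rw [h, h2] at h1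
      rw [h1, hb] at hc
      norm_num at hc
    · exact absurd (h ▸ o₂ i) (hna c (by rw [hc]; norm_num))
    · exfalso
      have h1 := MulAction.orbit_eq_iff.2 (o₂ i)
      have h2 := MulAction.orbit_eq_iff.2 (o₁ q)
      rw [h, h2] at h1
      rw [h1, hc] at hb
      norm_num at hb
    · rw [i₂ h]
  have hbij : Function.Bijective f := (Fintype.bijective_iff_injective_and_card _).2 ⟨hinj, by
    rw [hΩ, Fintype.card_option, Fintype.card_sum, Fintype.card_fin, Fintype.card_fin]⟩
  let E : Pt ≃ Ω := Equiv.ofBijective f hbij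
  have heq : ∀ (g : H) (x : Pt), f (rho g x) = e.symm g • f x := by
    intro g x
    rcases x with _ | p | i
    · exact (hfix (e.symm g)).symm
    · exact q₁ g p
    · exact q₂ g i
  let ψ : G →* Equiv.Perm Pt := (E.symm.permCongrHom.toMonoidHom).comp G.subtype
  have hψ : ∀ (k : G) (x : Pt), E (ψ k x) = k • E x := fun k x => by
    show E (E.symm ((k : Equiv.Perm Ω) (E x))) = _
    rw [Equiv.apply_symm_apply]
    rfl
  have hinjψ : Function.Injective ψ := E.symm.permCongrHom.injective.comp Subtype.val_injective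
  have hrho : ∀ g : H, ψ ((e.symm g : MulAction.stabilizer G a) : G) = rho g := fun g =>
    Equiv.ext fun x => E.injective ((hψ _ x).trans (heq g x).symm)
  refine ⟨ψ.range, ⟨fun x => ?_, fun g => ⟨_, hrho g⟩, ?_⟩, ⟨MonoidHom.ofInjective hinjψ⟩⟩
  · obtain ⟨k, hk⟩ := MulAction.exists_smul_eq G a (E x)
    exact ⟨ψ k, ⟨k, rfl⟩, E.injective ((hψ k base).trans hk)⟩
  · rintro _ ⟨k, rfl⟩ hk
    have hs : k ∈ MulAction.stabilizer G a := by
      have h := hψ k base
      rw [hk] at h
      exact h.symm
    exact ⟨e ⟨k, hs⟩, by rw [← hrho, e.symm_apply_apply]⟩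

end CfsgLib.RuRank
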